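import Mathlib
import Cfsg.Agent.Base
import Cfsg.Agent.Lib.ClassMax.ONd

/-!
Orthogonal decompositions into isometric non-degenerate blocks, and overgroups of their
stabilisers in `Ω`.
-/

set_option autoImplicit false
set_option linter.unusedSectionVars false
set_option linter.unusedVariables false

namespace H97o

open Module Cfsg H12 QuadraticMap

variable {F V : Type*} [Field F] [AddCommGroup V] [Module F V] {Q : QuadraticForm F V}
  [FiniteDimensional F V] {ι : Type*} [Fintype ι] [DecidableEq ι]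

theorem exists_O_of_isometry (hQ : Nondeg Q) (L : V →ₗ[F] V) (h : ∀ x, Q (L x) = Q x) :
    ∃ g : O Q, ∀ x, g.1 x = L x := by
  have hinj : Function.Injective L := (injective_iff_map_eq_zero L).2 fun x hx => hQ x fun w => by
    rw [← polar_congr L h, hx, polar_zero_left]
  exact ⟨⟨LinearEquiv.ofInjectiveEndo L hinj, h⟩, fun _ => rfl⟩

theorem eich_mem_movIn {W : Submodule F V} {d w : V} (hd : d ∈ W) (hw : w ∈ W) :
    eich Q d w ∈ movIn Q W := by
  by_cases h : Q d = 0 ∧ polar Q d w = 0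
  · intro x
    rw [eich_apply h.1 h.2, show x - (x + polar Q x w • d - polar Q x d • w -
      (Q w * polar Q x d) • d) = polar Q x d • w + (Q w * polar Q x d - polar Q x w) • d by module]
    exact W.add_mem (W.smul_mem _ hw) (W.smul_mem _ hd)
  · rw [eich_of_not h]; exact Subgroup.one_mem _

theorem rr_conj (g : O Q) (a b : V) :
    g * (refl Q a * refl Q b) * g⁻¹ = refl Q (g.1 a) * refl Q (g.1 b) := by
  rw [← refl_conj, ← refl_conj]; group

theorem rr_conj_mem_movIn (g : O Q) (a b : V) :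
    g * (refl Q a * refl Q b) * g⁻¹ ∈ movIn Q (Submodule.span F {g.1 a, g.1 b}) := by
  rw [rr_conj]
  exact Subgroup.mul_mem _ (refl_mem_movIn (Submodule.subset_span (by simp)))
    (refl_mem_movIn (Submodule.subset_span (by simp)))

theorem exists_mov_rr (hQ : Nondeg Q) {a b : V} (ha : Q a ≠ 0) (hab : a ∉ F ∙ b) :
    ∃ y, y - (refl Q a * refl Q b).1 y = a := by
  obtain ⟨y, h1, h2⟩ := hQ.exists_orth_B_eq (u := b) (v := a)
    (fun c hc => hab (Submodule.mem_span_singleton.2 ⟨c, hc.symm⟩)) (Q a)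
  refine ⟨y, ?_⟩
  rw [O.mul_apply, refl_apply_of_orth (B_symm h1), refl_apply, polar_comm, h2,
    inv_mul_cancel₀ ha, one_smul, sub_sub_cancel]

theorem notMem_span_symm {a b : V} (ha : a ≠ 0) (h : b ∉ F ∙ a) : a ∉ F ∙ b := fun h1 => by
  obtain ⟨c, rfl⟩ := Submodule.mem_span_singleton.1 h1
  have hc : c ≠ 0 := by rintro rfl; exact ha (zero_smul _ _)
  exact h (Submodule.mem_span_singleton.2 ⟨c⁻¹, by rw [smul_smul, inv_mul_cancel₀ hc, one_smul]⟩)

/-- An orthogonal decomposition into isometric blocks of dimension `k`, with its projections. -/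
structure Blk (Q : QuadraticForm F V) (D : ι → Submodule F V) (π : ι → V →ₗ[F] V) (k : ℕ) :
    Prop where
  nd : Nondeg Q
  good : Good Q
  mem : ∀ i x, π i x ∈ D i
  sum : ∀ x, ∑ i, π i x = x
  orth : ∀ i j, i ≠ j → ∀ x ∈ D i, ∀ y ∈ D j, polar Q x y = 0
  iso : ∀ i j, ∃ e : D i ≃ₗ[F] D j, ∀ x, Q (e x) = Q x
  dim : ∀ i, finrank F (D i) = k
  pos : 1 ≤ k

namespace Blk

variable {D : ι → Submodule F V} {π : ι → V →ₗ[F] V} {k : ℕ}

theorem B_proj (h : Blk Q D π k) {i : ι} {w : V} (hw : w ∈ D i) (x : V) :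
    polar Q w (π i x) = polar Q w x := by
  conv_rhs => rw [← h.sum x, B_sum_right]
  rw [Finset.sum_eq_single i (fun j _ hj => h.orth i j hj.symm w hw _ (h.mem j x)) (by simp)]

theorem ndOn (h : Blk Q D π k) (i : ι) : NdOn Q (D i) := fun x hx h1 =>
  h.nd x fun w => by rw [← h.B_proj hx]; exact h1 _ (h.mem i w)

theorem proj_self (h : Blk Q D π k) {i : ι} {x : V} (hx : x ∈ D i) : π i x = x :=
  sub_eq_zero.1 (h.ndOn i _ ((D i).sub_mem (h.mem i x) hx) fun y hy => by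
    rw [polar_comm, polar_sub_right, h.B_proj hy, sub_self])

theorem proj_eq_zero (h : Blk Q D π k) {i : ι} {x : V} (hx : ∀ w ∈ D i, polar Q w x = 0) :
    π i x = 0 :=
  h.ndOn i _ (h.mem i x) fun y hy => by rw [polar_comm, h.B_proj hy, hx y hy]

theorem proj_other (h : Blk Q D π k) {i j : ι} (hij : i ≠ j) {x : V} (hx : x ∈ D j) : π i x = 0 :=
  h.proj_eq_zero fun w hw => h.orth i j hij w hw x hx

theorem orth_of_proj (h : Blk Q D π k) {i : ι} {w x : V} (hw : w ∈ D i) (hx : π i x = 0) :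
    polar Q w x = 0 := by rw [← h.B_proj hw, hx, polar_zero_right]

theorem orth_sub (h : Blk Q D π k) {i : ι} {w : V} (hw : w ∈ D i) (x : V) :
    polar Q w (x - π i x) = 0 := by rw [polar_sub_right, h.B_proj hw, sub_self]

theorem proj_proj (h : Blk Q D π k) (i : ι) (x : V) : π i (π i x) = π i x := h.proj_self (h.mem i x)

theorem proj_proj' (h : Blk Q D π k) {i j : ι} (hij : i ≠ j) (x : V) : π i (π j x) = 0 :=
  h.proj_other hij (h.mem j x)

theorem mem_of_proj (h : Blk Q D π k) {i : ι} {x : V} (hx : ∀ j, j ≠ i → π j x = 0) : x ∈ D i := by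
  rw [← h.sum x, Finset.sum_eq_single i (fun j _ hj => hx j hj) (by simp)]
  exact h.mem i x

theorem exists_proj_ne (h : Blk Q D π k) {i : ι} {x : V} (hx : x ∉ D i) :
    ∃ j, j ≠ i ∧ π j x ≠ 0 := by
  by_contra h1
  push Not at h1
  exact hx (h.mem_of_proj h1)

theorem mem_of_proj_mem (h : Blk Q D π k) {T : Submodule F V} {x : V} (hx : ∀ j, π j x ∈ T) :
    x ∈ T := by
  rw [← h.sum x]
  exact T.sum_mem fun j _ => hx j

theorem eq_of_B_ne (h : Blk Q D π k) {i j : ι} {x y : V} (hx : x ∈ D i) (hy : y ∈ D j)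
    (hxy : polar Q x y ≠ 0) : i = j := by_contra fun hij => hxy (h.orth i j hij x hx y hy)

theorem eq_of_mem (h : Blk Q D π k) {i j : ι} {x : V} (hx : x ∈ D i) (hy : x ∈ D j)
    (h0 : x ≠ 0) : i = j := by_contra fun hij => h0 (by rw [← h.proj_self hx, h.proj_other hij hy])

theorem Q_sum (h : Blk Q D π k) (x : V) : Q x = ∑ i, Q (π i x) := by
  have key : ∀ s : Finset ι, Q (∑ i ∈ s, π i x) = ∑ i ∈ s, Q (π i x) := fun s => by
    induction s using Finset.induction_on with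
    | empty => simp
    | insert j s hj ih =>
      rw [Finset.sum_insert hj, Finset.sum_insert hj, Q_add, ih, B_sum_right,
        Finset.sum_eq_zero fun i hi => h.orth j i (by rintro rfl; exact hj hi) _ (h.mem j x) _
          (h.mem i x), add_zero]
  rw [← key, h.sum]

theorem Q_split (h : Blk Q D π k) (i : ι) (x : V) : Q x = Q (π i x) + Q (x - π i x) := by
  rw [← Q_add_orth (h.orth_sub (h.mem i x) x), add_sub_cancel]

theorem exists_Q_proj_ne (h : Blk Q D π k) {x : V} (hx : Q x ≠ 0) : ∃ l, Q (π l x) ≠ 0 := by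
  by_contra h1
  push Not at h1
  exact hx (by rw [h.Q_sum x, Finset.sum_eq_zero fun i _ => h1 i])

theorem exists_nonsing (h : Blk Q D π k) (i : ι) : ∃ x ∈ D i, Q x ≠ 0 :=
  (h.ndOn i).exists_Q_ne' (by rw [h.dim]; exact h.pos)

theorem inj (h : Blk Q D π k) : Function.Injective D := fun i j hij => by
  obtain ⟨x, hx, h1⟩ := h.exists_nonsing i
  exact h.eq_of_mem hx (hij ▸ hx) (ne_zero_of_Q_ne h1)

theorem mem_Hh (h : Blk Q D π k) {g : O Q} (hg : ∀ i, ∃ j, ∀ x ∈ D i, g.1 x ∈ D j) : g ∈ Hh Q D :=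
  mem_Hh_of_maps h.inj (fun i j => by rw [h.dim, h.dim]) hg

theorem onto (h : Blk Q D π k) {g : O Q} {i j : ι} (hg : ∀ x ∈ D i, g.1 x ∈ D j) {y : V}
    (hy : y ∈ D j) : ∃ x ∈ D i, g.1 x = y := by
  rw [← H97.map_eq_of_maps (g := g.1) hg (by rw [h.dim, h.dim])] at hy
  exact hy

theorem movIn_fix (h : Blk Q D π k) {i j : ι} (hij : i ≠ j) {g : O Q} (hg : g ∈ movIn Q (D j))
    {x : V} (hx : x ∈ D i) : g.1 x = x := H97o.movIn_fix h.nd hg (h.orth i j hij x hx)

theorem movIn_le (h : Blk Q D π k) (j : ι) : movIn Q (D j) ≤ Hh Q D := fun g hg =>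
  mem_Hh_of_stab fun i x hx => by
    by_cases hij : i = j
    · subst hij; exact movIn_apply hg hx
    · rwa [h.movIn_fix hij hg hx]

theorem refl_mem (h : Blk Q D π k) {j : ι} {b : V} (hb : b ∈ D j) : refl Q b ∈ Hh Q D :=
  h.movIn_le j (refl_mem_movIn hb)

theorem exists_Q_eq (h : Blk Q D π k) {i : ι} {x : V} (hx : x ∈ D i) (j : ι) :
    ∃ y ∈ D j, Q y = Q x := by
  obtain ⟨e, he⟩ := h.iso i j
  exact ⟨_, (e ⟨x, hx⟩).2, he _⟩

theorem universal [Finite F] (h : Blk Q D π k) (hk : 2 ≤ k) (i : ι) (c : F) : ∃ x ∈ D i, Q x = c :=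
  (h.ndOn i).universal (by rwa [h.dim]) c

theorem exists_swap (h : Blk Q D π k) {i j : ι} (hij : i ≠ j) : ∃ s ∈ Hh Q D,
    (∀ x ∈ D i, s.1 x ∈ D j) ∧ (∀ x ∈ D j, s.1 x ∈ D i) ∧
      (∀ x, π i x = 0 → π j x = 0 → s.1 x = x) ∧ s * s = 1 := by
  obtain ⟨e, he⟩ := h.iso i j
  let p : V →ₗ[F] D i := (π i).codRestrict _ (h.mem i)
  let p' : V →ₗ[F] D j := (π j).codRestrict _ (h.mem j)
  let L : V →ₗ[F] V := LinearMap.id - π i - π j + (D j).subtype ∘ₗ (e : D i →ₗ[F] D j) ∘ₗ p +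
    (D i).subtype ∘ₗ (e.symm : D j →ₗ[F] D i) ∘ₗ p'
  have hL : ∀ x, L x = x - π i x - π j x + e (p x) + e.symm (p' x) := fun x => rfl
  have he' : ∀ x, Q (e.symm x) = Q x := fun x => by rw [← he, e.apply_symm_apply]
  have h1 : ∀ x, ∀ w ∈ D i, polar Q w (x - π i x - π j x) = 0 := fun x w hw => by
    rw [polar_sub_right, h.orth_sub hw, h.orth i j hij w hw _ (h.mem j x), sub_zero]
  have h2 : ∀ x, ∀ w ∈ D j, polar Q w (x - π i x - π j x) = 0 := fun x w hw => by
    rw [sub_right_comm, polar_sub_right, h.orth_sub hw, h.orth j i hij.symm w hw _ (h.mem i x),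
      sub_zero]
  obtain ⟨s, hs⟩ := exists_O_of_isometry h.nd L fun x => by
    rw [hL, Q_add_orth, Q_add_orth (B_symm (h2 x _ (e (p x)).2)), he, he']
    · conv_rhs => rw [show x = x - π i x - π j x + π i x + π j x by abel]
      rw [Q_add_orth, Q_add_orth (B_symm (h1 x _ (h.mem i x)))]
      · rfl
      · rw [polar_add_left, B_symm (h2 x _ (h.mem j x)),
          h.orth i j hij _ (h.mem i x) _ (h.mem j x), add_zero]
    · rw [polar_add_left, B_symm (h1 x _ (e.symm (p' x)).2),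
        h.orth j i hij.symm _ (e (p x)).2 _ (e.symm (p' x)).2, add_zero]
  have h3 : ∀ x : D i, s.1 x = e x := fun x => by
    rw [hs, hL, h.proj_self x.2, h.proj_other hij.symm x.2,
      show p x = x from Subtype.ext (h.proj_self x.2),
      show p' x = 0 from Subtype.ext (h.proj_other hij.symm x.2)]
    simp
  have h4 : ∀ x : D j, s.1 x = e.symm x := fun x => by
    rw [hs, hL, h.proj_self x.2, h.proj_other hij x.2,
      show p' x = x from Subtype.ext (h.proj_self x.2),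
      show p x = 0 from Subtype.ext (h.proj_other hij x.2)]
    simp
  have h5 : ∀ x, π i x = 0 → π j x = 0 → s.1 x = x := fun x h5 h6 => by
    rw [hs, hL, h5, h6, show p x = 0 from Subtype.ext h5, show p' x = 0 from Subtype.ext h6]
    simp
  have h6 : ∀ x ∈ D i, s.1 x ∈ D j := fun x hx => (h3 ⟨x, hx⟩).symm ▸ (e _).2
  have h7 : ∀ x ∈ D j, s.1 x ∈ D i := fun x hx => (h4 ⟨x, hx⟩).symm ▸ (e.symm _).2
  have h8 : ∀ l, l ≠ i → l ≠ j → ∀ x ∈ D l, s.1 x = x := fun l hi hj x hx =>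
    h5 x (h.proj_other hi.symm hx) (h.proj_other hj.symm hx)
  refine ⟨s, h.mem_Hh fun l => ?_, h6, h7, h5, O.ext fun x => ?_⟩
  · by_cases hi : l = i
    · exact ⟨j, hi ▸ h6⟩
    by_cases hj : l = j
    · exact ⟨i, hj ▸ h7⟩
    exact ⟨l, fun x hx => by rwa [h8 l hi hj x hx]⟩
  · rw [O.mul_apply, O.one_apply]
    conv_lhs => rw [← h.sum x]
    rw [map_sum, map_sum]
    conv_rhs => rw [← h.sum x]
    refine Finset.sum_congr rfl fun l _ => ?_
    by_cases hi : l = i
    · subst hi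
      rw [h3 ⟨_, h.mem l x⟩, h4, e.symm_apply_apply]
    by_cases hj : l = j
    · subst hj
      rw [h4 ⟨_, h.mem l x⟩, h3, e.apply_symm_apply]
    rw [h8 l hi hj _ (h.mem l x), h8 l hi hj _ (h.mem l x)]

theorem proj_comm (h : Blk Q D π k) {g : O Q} {i j : ι} (hg : ∀ x ∈ D i, g.1 x ∈ D j) (y : V) :
    π j (g.1 y) = g.1 (π i y) := by
  have : π j (g.1 (y - π i y)) = 0 := h.proj_eq_zero fun w hw => by
    obtain ⟨x, hx, rfl⟩ := h.onto hg hw
    rw [O.map_B, h.orth_sub hx]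
  rwa [map_sub, map_sub, h.proj_self (hg _ (h.mem i y)), sub_eq_zero] at this

theorem le_finrank_of_moves (h : Blk Q D π k) {g : O Q} {W : Submodule F V} (hg : g ∈ movIn Q W)
    {i j : ι} (hij : i ≠ j) (h1 : ∀ x ∈ D i, g.1 x ∈ D j) : k ≤ finrank F W := by
  rw [← h.dim i]
  refine LinearMap.finrank_le_finrank_of_injective (f := ((LinearMap.id - (g.1 : V →ₗ[F] V)) ∘ₗ
    (D i).subtype).codRestrict W fun x => hg x) ((injective_iff_map_eq_zero _).2 fun x hx => ?_)
  have h2 : (x : V) - g.1 x = 0 := congrArg Subtype.val hx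
  by_contra h3
  exact hij (h.eq_of_mem x.2 (sub_eq_zero.1 h2 ▸ h1 x x.2) fun h4 => h3 (Subtype.ext h4))

theorem exists_comp [Finite F] (h : Blk Q D π k) (hk : 2 ≤ k) (l : ι) (g : O Q) :
    ∃ c ∈ movIn Q (D l), g * c ∈ Om Q :=
  H97o.exists_comp h.nd h.good (fun v hv => by
    obtain ⟨a, ha, h1⟩ := h.universal hk l (Q v)
    exact ⟨_, refl_mem_movIn ha, rr_mem_Om h.nd h1.symm⟩) g

end Blk

theorem exists_blk {ι' : Type} [Fintype ι'] [DecidableEq ι'] {Q : QuadraticForm F (ι' → F)}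
    (hQ : Nondeg Q) (hG : Good Q) {t k : ℕ} {D : Fin t → Submodule F (ι' → F)}
    (hD : Geo.IsOrthogonalMDecomposition Q k D) : ∃ π, Blk Q D π k := by
  have h1 := DirectSum.isInternal_submodule_of_iSupIndep_of_iSup_eq_top hD.decomp.decomp.indep
    hD.decomp.decomp.iSup_eq_top
  let e := LinearEquiv.ofBijective (DirectSum.coeLinearMap D) h1
  refine ⟨fun i => (D i).subtype ∘ₗ DirectSum.component F _ (fun i => D i) i ∘ₗ
    (e.symm : _ →ₗ[F] _), hQ, hG, fun i x => Submodule.coe_mem _, fun x => ?_,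
    hD.decomp.orthogonal, hD.isometric, hD.decomp.decomp.finrank_eq, hD.decomp.decomp.pos⟩
  conv_rhs => rw [← e.apply_symm_apply x, ← DirectSum.sum_univ_of (e.symm x), map_sum]
  refine Finset.sum_congr rfl fun i _ => ?_
  exact (DirectSum.coeLinearMap_of D i _).symm

theorem card_mul_eq {ι' : Type} [Fintype ι'] [DecidableEq ι'] {t k : ℕ}
    {D : Fin t → Submodule F (ι' → F)} (hD : Geo.IsMDecomposition k D) :
    t * k = Fintype.card ι' := by
  have h1 := DirectSum.isInternal_submodule_of_iSupIndep_of_iSup_eq_top hD.indep hD.iSup_eq_top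
  have := (LinearEquiv.ofBijective (DirectSum.coeLinearMap D) h1).finrank_eq
  rw [finrank_directSum, finrank_fintype_fun_eq_card] at this
  simpa [hD.finrank_eq] using this

/-- An overgroup in `Ω` of the stabiliser of the decomposition. -/
structure Ctx (Q : QuadraticForm F V) (D : ι → Submodule F V) (π : ι → V →ₗ[F] V) (k : ℕ)
    (X : Subgroup (O Q)) : Prop extends Blk Q D π k where
  le : Hh Q D ⊓ Om Q ≤ X
  le' : X ≤ Om Q

/-- The axes of reflections lying in `X` up to a factor stabilising the decomposition. -/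
def UU (D : ι → Submodule F V) (X : Subgroup (O Q)) (v : V) : Prop :=
  Q v ≠ 0 ∧ ∃ h ∈ Hh Q D, refl Q v * h ∈ X

theorem UU.smul {D : ι → Submodule F V} {X : Subgroup (O Q)} {v : V} (h : UU D X v) {c : F}
    (hc : c ≠ 0) : UU D X (c • v) :=
  ⟨by rw [Q_smul]; exact mul_ne_zero (pow_ne_zero 2 hc) h.1, by rw [refl_smul hc]; exact h.2⟩

theorem UU.neg {D : ι → Submodule F V} {X : Subgroup (O Q)} {v : V} (h : UU D X v) :
    UU D X (-v) := by simpa using h.smul (c := -1) (by simp)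

namespace Ctx

variable {D : ι → Submodule F V} {π : ι → V →ₗ[F] V} {k : ℕ} {X : Subgroup (O Q)}

theorem uu_of_mem (h : Ctx Q D π k X) {i : ι} {b : V} (hb : b ∈ D i) (hq : Q b ≠ 0) : UU D X b :=
  ⟨hq, _, h.refl_mem hb, by rw [refl_mul_self]; exact X.one_mem⟩

theorem mul_mem (h : Ctx Q D π k X) {v : V} (hv : UU D X v) {s : O Q} (hs : s ∈ Hh Q D)
    (h1 : refl Q v * s ∈ Om Q) : refl Q v * s ∈ X := by
  obtain ⟨-, c, hc, h2⟩ := hv
  have h3 := (Om Q).mul_mem ((Om Q).inv_mem (h.le' h2)) h1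
  have e : (refl Q v * c)⁻¹ * (refl Q v * s) = c⁻¹ * s := by group
  rw [e] at h3
  have := X.mul_mem h2 (h.le ⟨(Hh Q D).mul_mem ((Hh Q D).inv_mem hc) hs, h3⟩)
  rwa [mul_assoc, mul_inv_cancel_left] at this

theorem rr_mem (h : Ctx Q D π k X) {v b : V} (hv : UU D X v) {j : ι} (hb : b ∈ D j)
    (hq : Q v = Q b) : refl Q v * refl Q b ∈ X :=
  h.mul_mem hv (h.refl_mem hb) (rr_mem_Om h.nd hq)

theorem rr_mem' (h : Ctx Q D π k X) {v b : V} (hv : UU D X v) {j : ι} (hb : b ∈ D j) {t : F}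
    (hq : Q v = t ^ 2 * Q b) : refl Q v * refl Q b ∈ X := by
  have h1 := hv.1
  rw [hq] at h1
  exact h.mul_mem hv (h.refl_mem hb) (refl_mul_refl_mem_Om h.nd (right_ne_zero_of_mul h1)
    (by rintro rfl; simp at h1) hq)

theorem uu_of_rr (h : Ctx Q D π k X) {v b : V} (hv : Q v ≠ 0) {j : ι} (hb : b ∈ D j)
    (h1 : refl Q v * refl Q b ∈ X) : UU D X v := ⟨hv, _, h.refl_mem hb, h1⟩

theorem uu_conj (h : Ctx Q D π k X) {g : O Q} (hg : g ∈ X) {v y : V} {i l : ι} (hy : y ∈ D i)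
    (hgy : g.1 y ∈ D l) (hv : UU D X v) {t : F} (hq : Q v = t ^ 2 * Q y) : UU D X (g.1 v) :=
  h.uu_of_rr (by rw [O.map_Q]; exact hv.1) hgy (by
    rw [← rr_conj]
    exact X.mul_mem (X.mul_mem hg (h.rr_mem' hv hy hq)) (X.inv_mem hg))

theorem uu_apply (h : Ctx Q D π k X) {g : O Q} (hg : g ∈ Hh Q D) (hg' : g ∈ Om Q) {v : V}
    (hv : UU D X v) : UU D X (g.1 v) := by
  obtain ⟨h1, c, hc, h2⟩ := hv
  have h3 := h.le ⟨hg, hg'⟩
  refine ⟨by rwa [O.map_Q], g * c * g⁻¹,
    (Hh Q D).mul_mem ((Hh Q D).mul_mem hg hc) ((Hh Q D).inv_mem hg), ?_⟩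
  rw [← refl_conj, conj_mul]
  exact X.mul_mem (X.mul_mem h3 h2) (X.inv_mem h3)

theorem eich_mem (h : Ctx Q D π k X) {j : ι} {d w : V} (hd : d ∈ D j) (hw : w ∈ D j) :
    eich Q d w ∈ X := h.le ⟨h.movIn_le j (eich_mem_movIn hd hw), eich_mem_Om h.nd h.good d w⟩

theorem mem_TF (h : Ctx Q D π k X) {j : ι} {d w : V} (hd : d ∈ D j) (hw : w ∈ D j)
    (hdw : polar Q d w = 0) : w ∈ TF X d := ⟨hdw, fun c => h.eich_mem hd ((D j).smul_mem c hw)⟩

end Ctx

end H97o
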