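import Mathlib
import Cfsg.Agent.Base
import Cfsg.Agent.Lib.ClassMax.OBlk

/-!
The stabiliser in `Ω` of an orthogonal decomposition into blocks of dimension at least three.
-/

set_option autoImplicit false
set_option linter.unusedSectionVars false
set_option linter.unusedVariables false

namespace H97o

open Module Cfsg H12 QuadraticMap

variable {F V : Type*} [Field F] [Fintype F] [AddCommGroup V] [Module F V] {Q : QuadraticForm F V}
  [FiniteDimensional F V] {ι : Type*} [Fintype ι] [DecidableEq ι]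
  {D : ι → Submodule F V} {π : ι → V →ₗ[F] V} {k : ℕ} {X : Subgroup (O Q)}

/-- The blocks are large enough. -/
structure Big (Q : QuadraticForm F V) (D : ι → Submodule F V) (k : ℕ) : Prop where
  hk : 4 ≤ k ∨ (3 ≤ k ∧ (2 : F) ≠ 0 ∧ 4 ≤ Fintype.card F)
  hx : Fintype.card F = 2 → k = 4 → ∀ i, ∀ U ≤ D i, (∀ u ∈ U, Q u = 0) → finrank F U ≠ 2

theorem Big.three (hb : Big Q D k) : 3 ≤ k := by have := hb.hk; omega

theorem Blk.conn (h : Blk Q D π k) (hb : Big Q D k) {i : ι} {Y : Submodule F V}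
    (hY : ∀ b ∈ D i, Q b ≠ 0 → b ∈ Y ∨ ∀ y ∈ D i, y ∈ Y → polar Q y b = 0)
    {x : V} (hxW : x ∈ D i) (hxY : x ∈ Y) (h0 : x ≠ 0) : D i ≤ Y :=
  (h.ndOn i).le_of_conn (by rw [h.dim]; exact hb.hk.imp id fun h => ⟨h.1, h.2.1⟩)
    (fun h1 h2 => hb.hx h1 (h.dim i ▸ h2) i) hY hxW hxY h0

theorem Blk.finrank_ne_two (h : Blk Q D π k) (hk : 3 ≤ k) (i : ι) : finrank F V ≠ 2 := by
  have := (D i).finrank_le
  rw [h.dim] at this
  omega

theorem Blk.exists_comp_sing (h : Blk Q D π k) (hk : 3 ≤ k) {j : ι} {d : V} (hd : d ∈ D j)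
    (h0 : d ≠ 0) (hq : Q d = 0) (g : O Q) :
    ∃ c ∈ movIn Q (D j), (∃ a : F, a ≠ 0 ∧ c.1 d = a • d) ∧ g * c ∈ Om Q := by
  obtain ⟨f, hf, hdf⟩ := (h.ndOn j).exists_hyp hd h0 hq
  obtain ⟨z, hz, h1, h2, -⟩ := (h.ndOn j).exists_orth_hyp (by rwa [h.dim]) hd hf hdf
  have hQ : ∀ c : F, Q (d + c • f) = c := fun c => by simpa using hdf.Q_comb 1 c
  obtain ⟨c, ⟨hc, hc'⟩, h3⟩ := H97o.exists_comp h.nd h.good (C := movIn Q (D j) ⊓ St Q (F ∙ d))
    (fun v hv => by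
      have hm : ∀ c : F, refl Q (d + c • f) ∈ movIn Q (D j) := fun c =>
        refl_mem_movIn ((D j).add_mem hd ((D j).smul_mem _ hf))
      refine ⟨refl Q (d + Q v • f) * (refl Q (d + Q z • f) * refl Q z), ⟨Subgroup.mul_mem _ (hm _)
        (Subgroup.mul_mem _ (hm _) (refl_mem_movIn hz)), mem_St.2 fun x hx => ?_⟩, ?_⟩
      · obtain ⟨a, rfl⟩ := Submodule.mem_span_singleton.1 hx
        rw [map_smul, O.mul_apply, O.mul_apply, refl_apply_of_orth h2, hdf.refl_e h1, map_smul,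
          hdf.refl_f hv]
        exact Submodule.smul_mem _ _ (Submodule.smul_mem _ _ (Submodule.smul_mem _ _
          (Submodule.mem_span_singleton_self d)))
      · rw [← mul_assoc]
        exact (Om Q).mul_mem (rr_mem_Om h.nd (hQ _).symm) (rr_mem_Om h.nd (hQ _))) g
  obtain ⟨a, ha⟩ := Submodule.mem_span_singleton.1
    (mem_St.1 hc' d (Submodule.mem_span_singleton_self d))
  refine ⟨c, hc, ⟨a, ?_, ha.symm⟩, h3⟩
  rintro rfl
  exact O.apply_ne_zero c h0 (by rw [← ha, zero_smul])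

namespace Ctx

theorem TF_inv' (h : Ctx Q D π k X) (hk : 3 ≤ k) {j : ι} {d : V} (hd : d ∈ D j) (h0 : d ≠ 0)
    (hq : Q d = 0) {s : O Q} (hs : s ∈ Hh Q D) (hsd : s.1 d = d) {w : V} (hw : π j w = 0)
    (hT : w ∈ TF X d) : s.1 w ∈ TF X d := by
  obtain ⟨c, hc, ⟨a, ha, h1⟩, h2⟩ := h.exists_comp_sing hk hd h0 hq s
  have := TF_inv (h.le ⟨(Hh Q D).mul_mem hs (h.movIn_le j hc), h2⟩) ha
    (by rw [O.mul_apply, h1, map_smul, hsd]) hT
  rwa [O.mul_apply, H97o.movIn_fix h.nd hc fun y hy => B_symm (h.orth_of_proj hy hw)] at this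

theorem gain (h : Ctx Q D π k X) (hb : Big Q D k) {j : ι} {d : V} (hd : d ∈ D j) (h0 : d ≠ 0)
    (hq : Q d = 0) {y : V} (hy : y ∈ TF X d) (hyj : y ∉ D j) : Om Q ≤ X := by
  have hk := hb.three
  obtain ⟨l, hl, h1⟩ := h.exists_proj_ne hyj
  have h2 : y - π j y ∈ TF X d :=
    (TF X d).sub_mem hy (h.mem_TF hd (h.mem j y) (by rw [h.B_proj hd, hy.1]))
  have h3 : ∀ b ∈ D l, Q b ≠ 0 → ∀ w ∈ TF X d, π j w = 0 → polar Q w b ≠ 0 → b ∈ TF X d :=
    fun b hb' h3 w hw h4 h5 => mem_of_refl_mem h3 h5 hw (h.TF_inv' hk hd h0 hq (h.refl_mem hb')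
      (refl_apply_of_orth (h.orth j l hl.symm d hd b hb')) h4 hw)
  obtain ⟨b, hb', h4, h5⟩ := (h.ndOn l).exists_nonsing_B_ne (Or.inl (by rwa [h.dim]))
    (h.mem l y) h1
  have h6 : D l ≤ TF X d := h.conn hb (fun b hb' h6 => or_iff_not_imp_right.2 fun h7 => by
      push Not at h7
      obtain ⟨w, h8, h9, h10⟩ := h7
      exact h3 b hb' h6 w h9 (h.proj_other hl.symm h8) h10) hb'
    (h3 b hb' h4 _ h2 (by rw [map_sub, h.proj_proj, sub_self]) (by
      rwa [polar_comm, ← h.B_proj hb', map_sub, h.proj_proj' hl, sub_zero, polar_comm]))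
    (ne_zero_of_Q_ne h4)
  have h7 : ∀ w, polar Q d w = 0 → w ∈ TF X d := fun w hw => h.mem_of_proj_mem fun m => by
    by_cases hm : m = j
    · subst hm
      exact h.mem_TF hd (h.mem m w) (by rw [h.B_proj hd, hw])
    by_cases hm' : m = l
    · exact h6 (hm' ▸ h.mem m w)
    obtain ⟨s, hs, h8, -, h9, -⟩ := h.exists_swap (Ne.symm hm')
    obtain ⟨x, hx, h10⟩ := h.onto h8 (h.mem m w)
    rw [← h10]
    exact h.TF_inv' hk hd h0 hq hs (h9 d (h.proj_other hl hd) (h.proj_other hm hd))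
      (h.proj_other hl.symm hx) (h6 hx)
  obtain ⟨f, hf, hdf⟩ := (h.ndOn j).exists_hyp hd h0 hq
  have hm := (D j).add_mem hd ((D j).smul_mem (1 : F) hf)
  obtain ⟨a, ha, h8⟩ := h.exists_Q_eq hm l
  refine Om_le_of_TF' h.nd h.good (h.finrank_ne_two hk j) hq h7
    (h.le ⟨(Hh Q D).mul_mem (h.refl_mem hm) (h.refl_mem ha), rr_mem_Om h.nd h8.symm⟩) ?_
  rw [O.mul_apply, refl_apply_of_orth (h.orth j l hl.symm d hd a ha), hdf.refl_e one_ne_zero,
    B_smul_right, hdf.hef]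
  simp

theorem of_good (h : Ctx Q D π k X) (hb : Big Q D k) {u : V} (hu : UU D X u) {j : ι} {d : V}
    (hd : d ∈ D j) (h0 : d ≠ 0) (hq : Q d = 0) (hdu : polar Q d u = 0) (h1 : π j u ∉ F ∙ d)
    (h2 : u ∉ D j) : Om Q ≤ X := by
  obtain ⟨l, hl, -⟩ := h.exists_proj_ne h2
  obtain ⟨w, hw, h3, h4⟩ := (h.ndOn j).exists_orth_B_eq hd (h.mem j u) h1 1
  obtain ⟨a, ha, h5⟩ := h.universal (by have := hb.three; omega) l (Q u)
  have := TF_fix (h.rr_mem hu ha h5.symm) (d := d) (by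
    rw [O.mul_apply, refl_apply_of_orth (h.orth j l hl.symm d hd a ha), refl_apply_of_orth hdu])
    (h.mem_TF hd hw h3)
  rw [O.mul_apply, refl_apply_of_orth (h.orth j l hl.symm w hw a ha)] at this
  exact h.gain hb hd h0 hq (mem_of_refl_mem hu.1 (by
    rw [← h.B_proj hw, polar_comm, h4]; exact one_ne_zero) (h.mem_TF hd hw h3) this) h2

theorem of_uu (h : Ctx Q D π k X) (hb : Big Q D k) {u : V} (hu : UU D X u) (h1 : ∀ i, u ∉ D i) :
    Om Q ≤ X := by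
  obtain ⟨l, hl⟩ := h.exists_Q_proj_ne hu.1
  have d1 := finrank_inf_orth (Q := Q) (D l) (π l u)
  rw [h.dim] at d1
  rcases hb.hk with hk | ⟨hk, h2, hF⟩
  · obtain ⟨d, ⟨hd, h3⟩, h4, h5⟩ := exists_sing_in Q (D l ⊓ orth Q (π l u)) (by omega)
    exact h.of_good hb hu hd h4 h5 (by rw [← h.B_proj hd, B_symm (mem_orth.1 h3)])
      (notMem_span_of_Q hl h5) (h1 l)
  obtain ⟨i, hi, h3⟩ := h.exists_proj_ne (h1 l)
  have hki : 3 ≤ finrank F (D i) := by rwa [h.dim]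
  obtain ⟨e, he, f, hf, hef⟩ := (h.ndOn i).exists_hyp_pair hki
  obtain ⟨z, hz, h4, h5, -⟩ := (h.ndOn i).exists_orth_hyp hki he hf hef
  obtain ⟨c, hc, h6⟩ := exists_sq_avoid hF h4 (Q u - Q (π i u))
  obtain ⟨x, hx, h7, h8⟩ := (h.ndOn i).exists_Q_B hki h2 (h.mem i u) h3 (Q z)
    (μ := c * (Q u - 2 * Q (π i u))) (or_iff_not_imp_left.2 fun h7 => by
      rw [not_not.1 h7, mul_zero, sub_zero]; exact mul_ne_zero hc hu.1)
  obtain ⟨d, hd, h9, h10, h11⟩ := NdOn.exists_sing_orth h2 he hz hx hef.e_ne hef.he h5 h4 h7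
  have hbD := (D i).add_mem hx ((D i).smul_mem c (h.mem i u))
  have hbq : Q (x + c • π i u) ≠ 0 := by
    rw [Q_add, Q_smul, B_smul_right, polar_comm, h8, h7]
    exact fun h12 => h6 (by linear_combination h12)
  have e1 : (refl Q u).1 (x + c • π i u) = x - c • (u - π i u) := by
    rw [refl_apply, ← h.B_proj hbD, polar_add_left, B_smul_left, polar_comm, h8, B_self,
      show (Q u)⁻¹ * (c * (Q u - 2 * Q (π i u)) + c * (2 * Q (π i u))) = c by
        have := hu.1; field_simp; ring]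
    module
  obtain ⟨b', ⟨hb', h12⟩, h13⟩ := ((h.ndOn l).inf_orth h2 (h.mem l u) hl).universal (by omega)
    (Q (x + c • π i u))
  obtain ⟨a, ha, h14⟩ := h.universal (by omega) i (Q u)
  have h15 := h.rr_mem hu ha h14.symm
  have h16 := h.rr_mem (h.uu_of_mem (movIn_apply (refl_mem_movIn ha) hbD) (by rwa [O.map_Q])) hb'
    (by rw [O.map_Q, h13])
  have h17 := X.mul_mem (X.mul_mem h15 h16) (X.inv_mem h15)
  rw [rr_conj, O.mul_apply, O.mul_apply, refl_refl, refl_apply_of_orth (h.orth l i hi.symm _ hb' a ha),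
    refl_apply_of_orth (x := b') (by rw [← h.B_proj hb', B_symm (mem_orth.1 h12)])] at h17
  have h18 := h.uu_of_rr (by rwa [O.map_Q]) hb' h17
  rw [e1] at h18
  refine h.of_good hb h18 hd h9 h10 ?_ ?_ fun h19 => ?_
  · rw [polar_sub_right, B_smul_right, h11, h.orth_sub hd]; simp
  · rw [map_sub, map_smul, map_sub, h.proj_proj, sub_self, smul_zero, sub_zero, h.proj_self hx]
    exact notMem_span_of_Q (h7 ▸ h4) h10
  · have := h.proj_other hi.symm h19
    rw [map_sub, map_smul, map_sub, h.proj_other hi.symm hx, h.proj_proj' hi.symm, sub_zero,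
      zero_sub, neg_eq_zero, smul_eq_zero] at this
    exact ne_zero_of_Q_ne hl (this.resolve_left hc)

theorem mem_of_block (h : Ctx Q D π k X) (hb : Big Q D k) (hX : ¬ Om Q ≤ X) {g : O Q} (hg : g ∈ X)
    {i l : ι} {y : V} (hy : y ∈ D i) (hq : Q y ≠ 0) (hgy : g.1 y ∈ D l) : g ∈ Hh Q D := by
  have h1 : ∀ u, UU D X u → ∃ j, u ∈ D j := fun u hu => by_contra fun h1 =>
    hX (h.of_uu hb hu (not_exists.1 h1))
  have h2 : ∀ b ∈ D i, ∀ t : F, t ≠ 0 → Q b = t ^ 2 * Q y → polar Q y b ≠ 0 → g.1 b ∈ D l :=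
    fun b hb' t ht h2 h3 => by
      obtain ⟨j, hj⟩ := h1 _ (h.uu_conj hg hy hgy (h.uu_of_mem hb'
        (h2 ▸ mul_ne_zero (pow_ne_zero 2 ht) hq)) h2)
      rwa [h.eq_of_B_ne hgy hj (by rwa [O.map_B])]
  have h3 : ∀ c : F, ∃ y' ∈ D i, Q y' = c ∧ g.1 y' ∈ D l := fun c => by
    by_cases h4 : (2 : F) = 0
    · obtain ⟨s, hs⟩ := exists_sq_eq_of_two_eq_zero h4 (c * (Q y)⁻¹)
      exact ⟨s • y, (D i).smul_mem _ hy, by rw [Q_smul, hs]; field_simp,
        by rw [map_smul]; exact (D l).smul_mem _ hgy⟩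
    have d1 := finrank_inf_orth (Q := Q) (D i) y
    rw [h.dim] at d1
    have h5 : ∀ x ∈ D i ⊓ orth Q y, ∀ t : F, t ≠ 0 → Q y + Q x = t ^ 2 * Q y → g.1 x ∈ D l :=
      fun x hx t ht h5 => by
        have := (D l).sub_mem (h2 _ ((D i).add_mem hy hx.1) t ht
          (by rw [Q_add_orth (mem_orth.1 hx.2), h5])
          (by rw [polar_add_right, mem_orth.1 hx.2, add_zero, B_self]; exact mul_ne_zero h4 hq)) hgy
        rwa [map_add, add_sub_cancel_left] at this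
    rcases hb.hk with hk | ⟨hk, -, hF⟩
    · obtain ⟨e, he, f, hf, hef⟩ := ((h.ndOn i).inf_orth h4 hy hq).exists_hyp_pair (by omega)
      refine ⟨e + c • f, (D i).add_mem he.1 ((D i).smul_mem _ hf.1),
        by simpa using hef.Q_comb 1 c, ?_⟩
      rw [map_add, map_smul]
      exact (D l).add_mem (h5 e he 1 one_ne_zero (by rw [hef.he]; ring))
        ((D l).smul_mem _ (h5 f hf 1 one_ne_zero (by rw [hef.hf]; ring)))
    · obtain ⟨s, hs, hs'⟩ := exists_sq_ne_one hF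
      obtain ⟨x, hx, h6⟩ := ((h.ndOn i).inf_orth h4 hy hq).universal (by omega) ((s ^ 2 - 1) * Q y)
      obtain ⟨α, β, h7⟩ := exists_binary_eq h4 hq (b := Q x)
        (h6 ▸ mul_ne_zero (sub_ne_zero.2 hs') hq) c
      refine ⟨α • y + β • x, (D i).add_mem ((D i).smul_mem _ hy) ((D i).smul_mem _ hx.1), ?_, ?_⟩
      · rw [Q_add, Q_smul, Q_smul, B_smul_left, B_smul_right, mem_orth.1 hx.2, h7]; ring
      · rw [map_add, map_smul, map_smul]
        exact (D l).add_mem ((D l).smul_mem _ hgy)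
          ((D l).smul_mem _ (h5 x hx s hs (by rw [h6]; ring)))
  have h4 : ∀ m, ∀ b ∈ D m, Q b ≠ 0 → ∃ j, g.1 b ∈ D j := fun m b hb' h4 => by
    obtain ⟨y', h5, h6, h7⟩ := h3 (Q b)
    exact h1 _ (h.uu_conj hg h5 h7 (h.uu_of_mem hb' h4) (t := 1) (by rw [h6]; ring))
  refine h.mem_Hh fun m => ?_
  obtain ⟨x, hx, h5⟩ := h.exists_nonsing m
  obtain ⟨j, hj⟩ := h4 m x hx h5
  refine ⟨j, h.conn hb (Y := (D j).comap (g.1 : V →ₗ[F] V)) (fun b hb' h6 => ?_) hx hj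
    (ne_zero_of_Q_ne h5)⟩
  obtain ⟨j', hj'⟩ := h4 m b hb' h6
  by_cases h7 : j = j'
  · exact Or.inl (h7 ▸ hj')
  · exact Or.inr fun y _ h8 => by rw [← O.map_B g]; exact h.orth j j' h7 _ h8 _ hj'

theorem mem_Hh_big (h : Ctx Q D π k X) (hb : Big Q D k) (hX : ¬ Om Q ≤ X) (i : ι) {g : O Q}
    (hg : g ∈ X) : g ∈ Hh Q D := by
  obtain ⟨x, hx, hq⟩ := h.exists_nonsing i
  obtain ⟨a, ha, b, hb', h1, h2, h3, h4, t, ht, h5⟩ := (h.ndOn i).exists_pair
    (by rw [h.dim]; exact hb.hk) (π i ((g⁻¹).1 x))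
  rw [polar_comm, h.B_proj ha] at h1
  rw [polar_comm, h.B_proj hb'] at h2
  have h6 : g * (refl Q b * refl Q a) * g⁻¹ ∈ X := X.mul_mem (X.mul_mem hg (h.rr_mem'
    (h.uu_of_mem hb' (h5 ▸ mul_ne_zero (pow_ne_zero 2 ht) h3)) ha h5)) (X.inv_mem hg)
  obtain ⟨σ, hσ⟩ := Hh_elim (h.mem_of_block hb hX h6 hx hq (l := i) (by
    rwa [O.mul_apply, O.mul_apply, O.mul_apply, refl_apply_of_orth (B_symm h1),
      refl_apply_of_orth (B_symm h2), O.apply_inv_apply]))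
  have h7 := rr_conj_mem_movIn g b a
  have h8 : ∀ l, σ l = l := fun l => by_contra fun h8 => by
    have := h.le_finrank_of_moves h7 (Ne.symm h8) fun x hx => (hσ l x).1 hx
    have := finrank_span_pair_le (F := F) (g.1 b) (g.1 a)
    have := hb.three
    omega
  obtain ⟨y, hy⟩ := exists_mov_rr h.nd (h5 ▸ mul_ne_zero (pow_ne_zero 2 ht) h3) h4
  obtain ⟨l, hl⟩ := h.exists_Q_proj_ne (x := g.1 b)
    (by rw [O.map_Q, h5]; exact mul_ne_zero (pow_ne_zero 2 ht) h3)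
  have h9 : π l (g.1 b) ∈ Submodule.span F {g.1 b, g.1 a} := by
    have := h7 (π l (g.1 y))
    rw [← h.proj_comm (fun x hx => h8 l ▸ (hσ l x).1 hx), ← map_sub, O.mul_apply, O.mul_apply,
      O.inv_apply_apply, ← map_sub, hy] at this
    exact this
  obtain ⟨r, s, h10⟩ := Submodule.mem_span_pair.1 h9
  rw [← map_smul, ← map_smul, ← map_add] at h10
  exact h.mem_of_block hb hX hg ((D i).add_mem ((D i).smul_mem r hb') ((D i).smul_mem s ha))
    (by rw [← O.map_Q g, h10]; exact hl) (h10 ▸ h.mem l _)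

end Ctx

theorem isMaximalIn_blocks [Nontrivial ι] (h : Blk Q D π k) (hb : Big Q D k) :
    Geo.IsMaximalIn (Om Q) (Hh Q D ⊓ Om Q) := by
  obtain ⟨i, j, hij⟩ := exists_pair_ne ι
  refine H97.isMaximalIn_of inf_le_right (fun h1 => ?_) fun X hX hX' ⟨g, hg, hg'⟩ =>
    by_contra fun h1 => hg' ⟨Ctx.mem_Hh_big ⟨h, hX, hX'⟩ hb h1 i hg, hX' hg⟩
  obtain ⟨e, he, f, hf, hef⟩ := (h.ndOn i).exists_hyp_pair (by rw [h.dim]; exact hb.three)
  obtain ⟨w, hw, hq⟩ := h.exists_nonsing j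
  obtain ⟨σ, hσ⟩ := Hh_elim (h1 (eich_mem_Om h.nd h.good e w)).1
  have h2 := (hσ i f).1 hf
  have h3 := (hσ i e).1 he
  rw [eich_apply_self hef.he (h.orth i j hij e he w hw)] at h3
  rw [← h.eq_of_mem he h3 hef.e_ne, eich_apply hef.he (h.orth i j hij e he w hw),
    h.orth i j hij f hf w hw, hef.hfe] at h2
  have := h.proj_other hij.symm h2
  simp only [map_sub, map_smul, h.proj_other hij.symm hf, h.proj_other hij.symm he, zero_smul,
    add_zero, h.proj_self hw, one_smul, smul_zero, sub_zero, zero_sub, neg_eq_zero] at this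
  exact ne_zero_of_Q_ne hq this

end H97o
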