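import Mathlib
import Cfsg.Agent.Base
import Cfsg.Agent.Lib.ClassMax.ONd
import Cfsg.Agent.Lib.PSL2Max.Four

/-!
Reflection groups in three-dimensional quadratic spaces, through Dickson's theorem.
-/

set_option autoImplicit false
set_option linter.unusedSectionVars false
set_option linter.unusedVariables false

namespace H97o

section PGL

open MulAction Matrix MatrixGroups H29 H29.Tri H98
open scoped LinearAlgebra.Projectivization

variable {K : Type*} [Field K]

theorem tau_one : tau (1 : PGL(2, K)) = 4 := by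
  rw [← map_one ProjGenLinGroup.mk, tau_mk]
  norm_num

theorem exists_two_fix [IsAlgClosed K] {γ : PGL(2, K)} (hγ : tau γ ≠ 4) :
    ∃ x y : P1 K, x ≠ y ∧ γ • x = x ∧ γ • y = y := by
  induction γ using ProjGenLinGroup.induction_on with | mk g =>
  obtain ⟨a, ha⟩ := exists_root_char g.val.trace g.val.det
  obtain ⟨v, hv, h⟩ := exists_eigen ha
  obtain ⟨w, hw, h'⟩ := exists_eigen (m := g.val) (a := g.val.trace - a) (by linear_combination ha)
  refine ⟨_, _, fun e => hγ ?_, (pgl_fix_iff g hv).2 ⟨a, h⟩, (pgl_fix_iff g hw).2 ⟨_, h'⟩⟩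
  obtain ⟨s, rfl⟩ := (Projectivization.mk_eq_mk_iff' K _ _ _ _).1 e
  rw [mulVec_smul, h', smul_comm] at h
  have : g.val.trace - a = a := smul_left_injective K hv h
  rw [tau_mk, div_eq_iff g.det_ne_zero]
  linear_combination (g.val.trace - 2 * a) * this - 4 * ha

theorem PS_le_of_torus [IsAlgClosed K] {p : ℕ} [Fact p.Prime] [CharP K p] {j : ℕ} (hj : j ≠ 0)
    {H : Subgroup PGL(2, K)} (hH : H ≤ PG (fld K p j)) {ρ ρ' s g : PGL(2, K)}
    (hC : ∀ γ ∈ PG (fld K p j), Commute γ ρ → γ ∈ H) (hρ : ρ ∈ H) (hρ' : ρ' ∈ H) (hs : s ∈ H)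
    (hg : g ∈ H) (t4 : tau ρ ≠ 4) (t0 : tau ρ ≠ 0) (t2 : tau ρ ≠ 2) (t4' : tau ρ' ≠ 4)
    (t1' : tau ρ' ≠ 1) (hc : Commute ρ' ρ) (hinv : s * ρ * s⁻¹ = ρ⁻¹)
    (hnc : ¬ Commute (g * ρ * g⁻¹) ρ) : PS (fld K p j) ≤ H := by
  have := NeZero.mk hj
  obtain ⟨x, y, hxy, hx, hy⟩ := exists_two_fix t4
  have h1 : ρ ≠ 1 := by rintro rfl; exact t4 tau_one
  have h2 : ρ ^ 2 ≠ 1 := fun e => t0 (tau_two e h1)
  have h4 : ρ ^ 4 ≠ 1 := fun e => t2 (tau_four e h2)
  have h3 : ρ' ^ 3 ≠ 1 := fun e => t1' (tau_three e (by rintro rfl; exact t4' tau_one))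
  obtain ⟨t, ho, hT⟩ := exists_tor_PG hj (hH hρ) h1 hxy hx hy
  have htH : t ∈ H := hC t hT.mem (commute_of_fix_pair hxy hT.fx hT.fy hx hy)
  have h5 : ρ' • x = x ∧ ρ' • y = y := by
    rcases mem_pairStab.1 (mem_pairStab_of_fix (h := ρ') h1 hxy hx hy
      (by rw [← mul_smul, ← hc.eq, mul_smul, hx]) (by rw [← mul_smul, ← hc.eq, mul_smul, hy])) with
      h | h
    · exact h
    · exfalso
      have e1 := sq_eq_one_of_swap hxy h.1 h.2
      have e2 := sq_eq_one_of_swap (s := ρ' * ρ) hxy (by rw [mul_smul, hx, h.1])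
        (by rw [mul_smul, hy, h.2])
      rw [← pow_two, hc.mul_pow, pow_two, e1, one_mul] at e2
      exact h2 e2
  have h6 : s • x = y ∧ s • y = x := by
    have e : ∀ z : P1 K, ρ • z = z → ρ • s • z = s • z := fun z hz => by
      have : ρ * s * ρ = s := by
        calc _ = ρ * (s * ρ * s⁻¹) * s := by group
          _ = s := by rw [hinv]; group
      conv_rhs => rw [← this, mul_smul, mul_smul, hz]
    rcases mem_pairStab.1 (mem_pairStab_of_fix (h := s) h1 hxy hx hy (e x hx) (e y hy)) with h | h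
    · exfalso
      rw [(commute_of_fix_pair hxy h.1 h.2 hx hy).eq, mul_inv_cancel_right] at hinv
      exact h2 (by rw [pow_two]; nth_rewrite 2 [hinv]; rw [mul_inv_cancel])
    · exact h
  have d1 := orderOf_dvd_of_mem_zpowers (hT.gen ρ (hH hρ) hx hy)
  have d2 := orderOf_dvd_of_mem_zpowers (hT.gen ρ' (hH hρ') h5.1 h5.2)
  have hpos : 0 < orderOf t := by
    have : 1 < p ^ j := Nat.one_lt_pow hj (Fact.out : p.Prime).one_lt
    omega
  have h7 : 5 ≤ orderOf t := by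
    by_contra h7
    have e1 : ¬ orderOf t ∣ 4 := fun e => h4 (orderOf_dvd_iff_pow_eq_one.1 (d1.trans e))
    have e2 : ¬ orderOf t ∣ 3 := fun e => h3 (orderOf_dvd_iff_pow_eq_one.1 (d2.trans e))
    generalize orderOf t = n at *
    have : n < 5 := by omega
    interval_cases n <;> simp at e1 e2
  have ht2 : t ^ 2 ≠ 1 := fun e => by have := orderOf_le_of_pow_eq_one two_pos e; omega
  rcases dickson_rat p hj H hH with ⟨c, -, h⟩ | ⟨x', y', t', -, h', h⟩ | ⟨-, h⟩ | ⟨-, h⟩ |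
    ⟨hp, -, h⟩ | ⟨i, c, hc', hi, hij, h8, h⟩
  · exfalso
    rcases fix_cases h1 hxy hx hy (h hρ) with e | e
    · exact hxy (by rw [← h6.1, ← e]; exact (h hs).symm)
    · exact hxy (by rw [← h6.2, ← e]; exact h hs)
  · exfalso
    have e := pairStab_eq_of_fix ht2 hxy h'.ne ((stabilizer _ x).pow_mem hT.fx 2)
      ((stabilizer _ y).pow_mem hT.fy 2) (sq_fix_of_mem_pairStab (h htH)).1
      (sq_fix_of_mem_pairStab (h htH)).2
    rw [e] at h
    refine hnc (commute_of_fix_pair hxy ?_ ?_ hx hy) <;>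
    rcases mem_pairStab.1 (h hg) with ⟨e1, e2⟩ | ⟨e1, e2⟩
    · conv_lhs => rw [← e1, mul_smul, mul_smul, inv_smul_smul, hx, e1]
    · conv_lhs => rw [← e2, mul_smul, mul_smul, inv_smul_smul, hy, e2]
    · conv_lhs => rw [← e2, mul_smul, mul_smul, inv_smul_smul, hy, e2]
    · conv_lhs => rw [← e1, mul_smul, mul_smul, inv_smul_smul, hx, e1]
  · have := orderOf_le_alt4 h htH; omega
  · have := orderOf_le_sym4 h htH; omega
  · exfalso
    have := orderOf_le_alt5 h htH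
    exact hp ((Nat.prime_dvd_prime_iff_eq Nat.prime_two Fact.out).1
      (Nat.prime_two.dvd_of_dvd_pow (n := j) (by omega))).symm
  · by_cases hij' : i = j
    · subst hij'
      rcases h with rfl | ⟨-, rfl⟩
      · rw [cj_PG hc']; exact PS_le_PG _
      · rw [cj_PS hc']
    exfalso
    have h9 : c⁻¹ * t * c ∈ PG (fld K p i) := by
      rcases h with rfl | ⟨-, rfl⟩
      · exact mem_cj.1 htH
      · exact PS_le_PG _ (mem_cj.1 htH)
    have h10 : orderOf (c⁻¹ * t * c) = orderOf t := by simpa using (MulAut.conj c⁻¹).orderOf_eq t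
    have h11 := orderOf_le_of_mem_PG hi h9
      (by rw [h10]; exact Tor.not_dvd hj (d := 1) (by simpa using ho))
    rw [h10] at h11
    have h12 : orderOf t ≤ p ^ i + 1 := by
      rcases h11 with e | e <;> have := Nat.le_of_dvd (by omega) e <;> omega
    have h13 := sq_le_pow (p := p) hj hij hij'
    have : 3 * p ^ i ≤ (p ^ i) ^ 2 := by rw [pow_two]; exact Nat.mul_le_mul_right _ h8
    omega

theorem toPGL_mem_of_torus {F : Type*} [Field F] [Finite F] {G : Subgroup PGL(2, F)}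
    {ρ ρ' s g : PGL(2, F)} (hC : ∀ γ, Commute γ ρ → γ ∈ G) (hs : s ∈ G)
    (hg : g ∈ G) (t4 : tau ρ ≠ 4) (t0 : tau ρ ≠ 0) (t2 : tau ρ ≠ 2) (t4' : tau ρ' ≠ 4)
    (t1' : tau ρ' ≠ 1) (hc : Commute ρ' ρ) (hinv : s * ρ * s⁻¹ = ρ⁻¹)
    (hnc : ¬ Commute (g * ρ * g⁻¹) ρ) (x : PSL(2, F)) :
    ProjectiveSpecialLinearGroup.toPGL x ∈ G := by
  obtain ⟨p, _, _, j, hj, hF⟩ := exists_card_eq_pow F
  let f : PGL(2, F) →* PGL(2, AlgebraicClosure F) :=
    ProjGenLinGroup.map (algebraMap F (AlgebraicClosure F))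
  have hf : Function.Injective f := pgl_map_injective _
  have ht : ∀ (γ : PGL(2, F)) (n : ℕ), tau γ ≠ n → tau (f γ) ≠ n := fun γ n h e => h
    ((algebraMap F (AlgebraicClosure F)).injective (by rw [map_natCast, ← e, tau_map]))
  have h1 := PS_le_of_torus (K := AlgebraicClosure F) hj (H := G.map f) (ρ := f ρ) (ρ' := f ρ')
    (by rw [← range_pglMap hF]; exact Subgroup.map_le_range f G)
    (by
      rw [← range_pglMap hF]
      rintro _ ⟨γ, rfl⟩ h
      exact ⟨γ, hC γ (hf (by simpa only [map_mul] using h.eq)), rfl⟩)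
    ⟨ρ, hC ρ (Commute.refl ρ), rfl⟩ ⟨ρ', hC ρ' hc, rfl⟩ ⟨s, hs, rfl⟩ ⟨g, hg, rfl⟩
    (by simpa using ht ρ 4 (by simpa using t4)) (by simpa using ht ρ 0 (by simpa using t0))
    (by simpa using ht ρ 2 (by simpa using t2)) (by simpa using ht ρ' 4 (by simpa using t4'))
    (by simpa using ht ρ' 1 (by simpa using t1')) (hc.map f)
    (by rw [← map_inv, ← map_mul, ← map_mul, hinv, map_inv])
    (fun h => hnc (hf (by simpa only [map_mul, map_inv] using h.eq)))
  rw [← range_iota hF] at h1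
  obtain ⟨y, hy, e⟩ := h1 ⟨x, rfl⟩
  rw [← hf e]; exact hy

end PGL

end H97o
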