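import Mathlib
import Cfsg.Agent.Base
import Cfsg.Agent.Lib.ClassMax.ODick
import Cfsg.Agent.Lib.ClassMax.OBlk

/-!
Three-dimensional quadratic spaces as spaces of matrices of trace zero.
-/

set_option autoImplicit false
set_option linter.unusedSectionVars false
set_option linter.unusedVariables false

namespace H97o

open Module Cfsg H12 QuadraticMap Matrix MatrixGroups

variable {F V : Type*} [Field F] [AddCommGroup V] [Module F V] {Q : QuadraticForm F V}

section Mat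

theorem tr0 {X : Matrix (Fin 2) (Fin 2) F} (h : X.trace = 0) : X 1 1 = -X 0 0 := by
  rw [trace_fin_two] at h; linear_combination h

theorem sq_tr0 {X : Matrix (Fin 2) (Fin 2) F} (h : X.trace = 0) : X * X = -X.det • 1 := by
  rw [H29.cayley_two, h, zero_smul, zero_sub, neg_smul]

theorem anti_tr0 {X Y : Matrix (Fin 2) (Fin 2) F} (hX : X.trace = 0) (hY : Y.trace = 0) :
    X * Y = (X * Y).trace • 1 - Y * X := by
  ext i j
  fin_cases i <;> fin_cases j <;>
    simp [Matrix.mul_apply, Fin.sum_univ_two, trace_fin_two, tr0 hX, tr0 hY] <;> ring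

theorem exists_GL {X : Matrix (Fin 2) (Fin 2) F} (h : X.det ≠ 0) : ∃ A : GL (Fin 2) F, A.val = X :=
  ⟨GeneralLinearGroup.mkOfDetNeZero X h, rfl⟩

theorem conj_eq_iff (A : GL (Fin 2) F) (X Y : Matrix (Fin 2) (Fin 2) F) :
    A.val * X * (A⁻¹).val = Y ↔ A.val * X = Y * A.val := Units.mul_inv_eq_iff_eq_mul _

theorem conj_tr0 {Y : GL (Fin 2) F} (hY : Y.val.trace = 0) {X : Matrix (Fin 2) (Fin 2) F}
    (hX : X.trace = 0) :
    Y.val * X * (Y⁻¹).val = -X - ((X * Y.val).trace / Y.val.det) • Y.val := by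
  have hd := Y.det_ne_zero
  rw [conj_eq_iff, sub_mul, smul_mul_assoc, sq_tr0 hY, smul_smul, anti_tr0 hY hX,
    trace_mul_comm, neg_mul, mul_neg, div_mul_cancel₀ _ hd, neg_smul]
  abel

theorem mk_sq_tr0 {Y : GL (Fin 2) F} (hY : Y.val.trace = 0) :
    (ProjGenLinGroup.mk Y : PGL(2, F)) * ProjGenLinGroup.mk Y = 1 := by
  rw [← map_mul, H29.pgl_mk_eq_one_iff, Units.val_mul, sq_tr0 hY]
  simp

theorem exists_of_commute {A B : GL (Fin 2) F}
    (h : Commute (ProjGenLinGroup.mk A : PGL(2, F)) (ProjGenLinGroup.mk B)) :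
    ∃ c : F, c * c = 1 ∧ B.val * A.val = c • (A.val * B.val) := by
  have := h.eq
  rw [← map_mul, ← map_mul, H29.pgl_mk_eq_mk_iff] at this
  obtain ⟨c, -, hc⟩ := this
  refine ⟨c, ?_, hc⟩
  have h1 := congrArg det hc
  rw [Units.val_mul, Units.val_mul, det_smul, det_mul, det_mul, Fintype.card_fin] at h1
  exact mul_right_cancel₀ (mul_ne_zero A.det_ne_zero B.det_ne_zero) (by linear_combination -h1)

theorem comm_of_commute {A B : GL (Fin 2) F} (hA : A.val.trace ≠ 0)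
    (h : Commute (ProjGenLinGroup.mk A : PGL(2, F)) (ProjGenLinGroup.mk B)) :
    B.val * A.val = A.val * B.val := by
  obtain ⟨c, -, hc⟩ := exists_of_commute h
  have h1 : B.val * A.val * (B⁻¹).val = c • A.val := by rw [conj_eq_iff, hc, smul_mul_assoc]
  have h2 := congrArg trace h1
  rw [trace_units_conj, trace_smul, smul_eq_mul] at h2
  rw [hc, mul_right_cancel₀ hA (h2.symm.trans (one_mul _).symm), one_smul]

theorem exists_of_comm {A G : Matrix (Fin 2) (Fin 2) F} (hA : A.trace ^ 2 ≠ 4 * A.det)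
    (h : G * A = A * G) : ∃ s t : F, G = s • 1 + t • A := by
  have e := fun i j => congrFun (congrFun h i) j
  have e1 := e 0 0
  have e2 := e 0 1
  have e3 := e 1 0
  simp only [Matrix.mul_apply, Fin.sum_univ_two] at e1 e2 e3
  rw [trace_fin_two, det_fin_two] at hA
  have key : ∀ t : F, G 0 1 = t * A 0 1 → G 1 0 = t * A 1 0 → G 0 0 - G 1 1 = t * (A 0 0 - A 1 1) →
      ∃ s t : F, G = s • 1 + t • A := fun t h1 h2 h3 => ⟨G 0 0 - t * A 0 0, t, by
    ext i j
    fin_cases i <;> fin_cases j <;> simp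
    exacts [h1, h2, by linear_combination -h3]⟩
  by_cases h1 : A 0 1 = 0
  · have h2 : A 0 0 - A 1 1 ≠ 0 := fun h2 => hA (by
      linear_combination (A 0 0 - A 1 1) * h2 + 4 * A 1 0 * h1)
    refine key ((G 0 0 - G 1 1) / (A 0 0 - A 1 1)) ?_ ?_ ?_ <;> field_simp
    · linear_combination -e2 + (G 0 0 - G 1 1) * h1 - (G 0 0 - G 1 1) * h1
    · linear_combination e3
  · refine key (G 0 1 / A 0 1) ?_ ?_ ?_ <;> field_simp
    · linear_combination -e1
    · linear_combination e2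

theorem exists_binary_one [Finite F] {a b c : F} (hd : a ^ 2 + b * c ≠ 0)
    (h : ¬ (b = 0 ∧ c = 0 ∧ 2 * a = 0)) : ∃ x y : F, c * x ^ 2 - 2 * a * x * y - b * y ^ 2 = 1 := by
  have key : ∀ a b c : F, a ^ 2 + b * c ≠ 0 → c ≠ 0 →
      ∃ x y : F, c * x ^ 2 - 2 * a * x * y - b * y ^ 2 = 1 := fun a b c hd hc => by
    obtain ⟨x, y, h1⟩ : ∃ x y : F, x ^ 2 - y ^ 2 * (a ^ 2 + b * c) = c := by
      by_cases h2 : (2 : F) = 0
      · obtain ⟨x, hx⟩ := exists_sq_eq_of_two_eq_zero h2 c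
        exact ⟨x, 0, by rw [hx]; ring⟩
      · obtain ⟨x, y, hx⟩ := exists_binary_eq h2 one_ne_zero (neg_ne_zero.2 hd) c
        exact ⟨x, y, by linear_combination hx⟩
    refine ⟨(x + a * y) / c, y, ?_⟩
    field_simp
    linear_combination h1
  by_cases hc : c = 0
  · by_cases hb : b = 0
    · have h2 : 2 * a ≠ 0 := fun h2 => h ⟨hb, hc, h2⟩
      refine ⟨1, -(2 * a)⁻¹, ?_⟩
      rw [hb, hc]
      linear_combination mul_inv_cancel₀ h2
    · obtain ⟨x, y, h1⟩ := key a (-c) (-b) (by rwa [neg_mul_neg, mul_comm]) (neg_ne_zero.2 hb)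
      exact ⟨y, x, by linear_combination h1⟩
  · exact key a b c hd hc

theorem exists_conj_comp [Finite F] {X : Matrix (Fin 2) (Fin 2) F} (hX : X.trace = 0)
    (hd : X.det ≠ 0) (h : ¬ (X 0 1 = 0 ∧ X 1 0 = 0 ∧ 2 * X 0 0 = 0)) :
    ∃ P : GL (Fin 2) F, P.val.det = 1 ∧ P.val * !![0, -X.det; 1, 0] * (P⁻¹).val = X := by
  obtain ⟨x, y, h1⟩ := exists_binary_one (a := X 0 0) (b := X 0 1) (c := X 1 0)
    (fun e => hd (by rw [det_fin_two, tr0 hX]; linear_combination -e)) h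
  have h2 : det !![x, X 0 0 * x + X 0 1 * y; y, X 1 0 * x - X 0 0 * y] = 1 := by
    rw [det_fin_two_of]; linear_combination h1
  obtain ⟨P, hP⟩ := exists_GL (h2 ▸ one_ne_zero)
  refine ⟨P, hP ▸ h2, ?_⟩
  rw [conj_eq_iff, hP]
  ext i j
  fin_cases i <;> fin_cases j <;>
    simp [Matrix.mul_apply, Fin.sum_univ_two, det_fin_two, tr0 hX] <;> ring

end Mat

/-- The vector attached to a matrix of trace zero. -/
def psi (Q : QuadraticForm F V) (z e f : V) : Matrix (Fin 2) (Fin 2) F →ₗ[F] V where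
  toFun X := X 0 0 • z + X 0 1 • e + (X 1 0 * Q z) • f
  map_add' X Y := by simp only [Matrix.add_apply]; module
  map_smul' c X := by simp only [Matrix.smul_apply, smul_eq_mul, RingHom.id_apply]; module

theorem psi_apply (z e f : V) (X : Matrix (Fin 2) (Fin 2) F) :
    psi Q z e f X = X 0 0 • z + X 0 1 • e + (X 1 0 * Q z) • f := rfl

/-- A basis of a three-dimensional space made of a hyperbolic pair and an orthogonal vector. -/
structure Mdl (Q : QuadraticForm F V) (S : Submodule F V) (z e f : V) : Prop where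
  hyp : IsHyp Q e f
  hez : polar Q e z = 0
  hfz : polar Q f z = 0
  hz : Q z ≠ 0
  zm : z ∈ S
  em : e ∈ S
  fm : f ∈ S
  onto : ∀ x ∈ S, ∃ X : Matrix (Fin 2) (Fin 2) F, X.trace = 0 ∧ psi Q z e f X = x

/-- The matrices whose action by conjugation is induced, up to sign, by elements of `Γ`. -/
def Del (Γ : Subgroup (O Q)) (z e f : V) : Subgroup (GL (Fin 2) F) where
  carrier := {A | ∃ γ ∈ Γ, ∃ ε : F, ε * ε = 1 ∧ ∀ X, X.trace = 0 →
    γ.1 (psi Q z e f X) = ε • psi Q z e f (A.val * X * (A⁻¹).val)}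
  mul_mem' := by
    rintro A B ⟨γ, h1, ε, h2, h3⟩ ⟨δ, h4, η, h5, h6⟩
    refine ⟨γ * δ, Γ.mul_mem h1 h4, η * ε, by linear_combination η * η * h2 + h5, fun X hX => ?_⟩
    rw [O.mul_apply, h6 X hX, map_smul, h3 _ (by rwa [trace_units_conj]), smul_smul, _root_.mul_inv_rev,
      Units.val_mul, Units.val_mul]
    simp only [mul_assoc]
  one_mem' := ⟨1, Γ.one_mem, 1, mul_one 1, fun X _ => by simp⟩
  inv_mem' := by
    rintro A ⟨γ, h1, ε, h2, h3⟩
    refine ⟨γ⁻¹, Γ.inv_mem h1, ε, h2, fun X hX => ?_⟩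
    have := h3 ((A⁻¹).val * X * (A⁻¹⁻¹).val) (by rwa [trace_units_conj])
    simp only [inv_inv, mul_assoc, Units.mul_inv, mul_one, Units.mul_inv_cancel_left] at this
    rw [O.inv_apply_eq_iff, map_smul, inv_inv, mul_assoc, this, smul_smul, h2, one_smul]

theorem mem_Del_of_mk {Γ : Subgroup (O Q)} {z e f : V} {A : GL (Fin 2) F}
    (h : (ProjGenLinGroup.mk A : PGL(2, F)) ∈ (Del Γ z e f).map ProjGenLinGroup.mk) :
    A ∈ Del Γ z e f := by
  obtain ⟨B, ⟨γ, h1, ε, h2, h3⟩, h4⟩ := h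
  obtain ⟨c, hc, h5⟩ := H29.pgl_mk_eq_mk_iff.1 h4
  refine ⟨γ, h1, ε, h2, fun X hX => ?_⟩
  rw [h3 X hX]
  congr 2
  symm
  rw [conj_eq_iff, h5, smul_mul_assoc, mul_smul_comm, Units.inv_mul_cancel_right]

/-- `Γ` induces the action of `SL₂`. -/
def Full (Γ : Subgroup (O Q)) (z e f : V) : Prop :=
  ∀ A : GL (Fin 2) F, A.val.det = 1 → A ∈ Del Γ z e f

theorem full_of_toPGL {Γ : Subgroup (O Q)} {z e f : V}
    (h : ∀ x : PSL(2, F), ProjectiveSpecialLinearGroup.toPGL x ∈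
      (Del Γ z e f).map (ProjGenLinGroup.mk : GL (Fin 2) F →* PGL(2, F))) : Full Γ z e f :=
  fun A hA => mem_Del_of_mk (by
    let B : SL(2, F) := ⟨A.val, hA⟩
    have := h B
    rwa [ProjectiveSpecialLinearGroup.toPGL_mk,
      show SpecialLinearGroup.toGL B = A from Units.ext rfl] at this)

namespace Mdl

variable {S : Submodule F V} {z e f : V} {Γ : Subgroup (O Q)}

theorem psi_mem (h : Mdl Q S z e f) (X : Matrix (Fin 2) (Fin 2) F) : psi Q z e f X ∈ S :=
  S.add_mem (S.add_mem (S.smul_mem _ h.zm) (S.smul_mem _ h.em)) (S.smul_mem _ h.fm)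

theorem B_psi' (h : Mdl Q S z e f) (X Y : Matrix (Fin 2) (Fin 2) F) :
    polar Q (psi Q z e f X) (psi Q z e f Y) =
      Q z * (2 * X 0 0 * Y 0 0 + X 0 1 * Y 1 0 + X 1 0 * Y 0 1) := by
  simp only [psi_apply, polar_add_left, polar_add_right, B_smul_left, B_smul_right, B_self,
    h.hez, h.hfz, B_symm h.hez, B_symm h.hfz, h.hyp.he, h.hyp.hf, h.hyp.hef, h.hyp.hfe]
  ring

theorem B_psi (h : Mdl Q S z e f) {X Y : Matrix (Fin 2) (Fin 2) F} (hX : X.trace = 0)
    (hY : Y.trace = 0) : polar Q (psi Q z e f X) (psi Q z e f Y) = Q z * (X * Y).trace := by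
  rw [h.B_psi', trace_fin_two]
  simp only [Matrix.mul_apply, Fin.sum_univ_two, tr0 hX, tr0 hY]
  ring

theorem Q_psi (h : Mdl Q S z e f) {X : Matrix (Fin 2) (Fin 2) F} (hX : X.trace = 0) :
    Q (psi Q z e f X) = -Q z * X.det := by
  simp only [psi_apply, Q_add, Q_smul, polar_add_left, B_smul_left, B_smul_right, det_fin_two,
    B_symm h.hez, B_symm h.hfz, h.hyp.he, h.hyp.hf, h.hyp.hef, tr0 hX]
  ring

theorem exists_GL (h : Mdl Q S z e f) {x : V} (hx : x ∈ S) (hq : Q x ≠ 0) :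
    ∃ A : GL (Fin 2) F, A.val.trace = 0 ∧ psi Q z e f A.val = x := by
  obtain ⟨X, h1, rfl⟩ := h.onto x hx
  rw [h.Q_psi h1] at hq
  obtain ⟨A, rfl⟩ := H97o.exists_GL (right_ne_zero_of_mul hq)
  exact ⟨A, h1, rfl⟩

theorem psi_conj (h : Mdl Q S z e f) {Y : GL (Fin 2) F} (hY : Y.val.trace = 0)
    {X : Matrix (Fin 2) (Fin 2) F} (hX : X.trace = 0) :
    psi Q z e f (Y.val * X * (Y⁻¹).val) = -(refl Q (psi Q z e f Y.val)).1 (psi Q z e f X) := by
  have h1 := h.hz
  have h2 := Y.det_ne_zero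
  rw [conj_tr0 hY hX, refl_apply, h.B_psi hX hY, h.Q_psi hY, map_sub, map_neg, map_smul,
    show (-Q z * Y.val.det)⁻¹ * (Q z * (X * Y.val).trace) = -((X * Y.val).trace / Y.val.det) by
      field_simp]
  module

theorem mem_Del (h : Mdl Q S z e f) {Y : GL (Fin 2) F} (hY : Y.val.trace = 0)
    (h1 : refl Q (psi Q z e f Y.val) ∈ Γ) : Y ∈ Del Γ z e f :=
  ⟨_, h1, -1, by ring, fun X hX => by rw [h.psi_conj hY hX]; module⟩

theorem trans [Finite F] (h : Mdl Q S z e f) (hΓ : Full Γ z e f) {v w : V} (hv : v ∈ S) (hw : w ∈ S)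
    (hq : Q w ≠ 0) (hvw : Q v = Q w) (h1 : ∃ y ∈ S, polar Q v y ≠ 0)
    (h2 : ∃ y ∈ S, polar Q w y ≠ 0) : ∃ γ ∈ Γ, ∃ ε : F, ε ≠ 0 ∧ γ.1 w = ε • v := by
  have key : ∀ X : Matrix (Fin 2) (Fin 2) F, (∃ y ∈ S, polar Q (psi Q z e f X) y ≠ 0) →
      ¬ (X 0 1 = 0 ∧ X 1 0 = 0 ∧ 2 * X 0 0 = 0) := by
    rintro X ⟨y, hy, h3⟩ ⟨h4, h5, h6⟩
    obtain ⟨Y, -, rfl⟩ := h.onto y hy
    rw [h.B_psi', h4, h5, h6] at h3
    simp at h3
  obtain ⟨X, hX, rfl⟩ := h.onto v hv
  obtain ⟨Y, hY, rfl⟩ := h.onto w hw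
  rw [h.Q_psi hY] at hq
  rw [h.Q_psi hX, h.Q_psi hY] at hvw
  have h3 := mul_left_cancel₀ (left_ne_zero_of_mul hq) hvw
  obtain ⟨P, h4, h5⟩ := exists_conj_comp hX (h3 ▸ right_ne_zero_of_mul hq) (key X h1)
  obtain ⟨P', h6, h7⟩ := exists_conj_comp hY (right_ne_zero_of_mul hq) (key Y h2)
  obtain ⟨γ, h8, ε, h9, h10⟩ := (Del Γ z e f).mul_mem (hΓ P h4) ((Del Γ z e f).inv_mem (hΓ P' h6))
  refine ⟨γ, h8, ε, left_ne_zero_of_mul_eq_one h9, ?_⟩
  rw [h10 Y hY]
  congr 2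
  rw [← h5, h3, _root_.mul_inv_rev, inv_inv, Units.val_mul, Units.val_mul]
  conv_lhs => rw [← h7]
  simp only [mul_assoc, Units.inv_mul_cancel_left]

theorem refl_mem [Finite F] (h : Mdl Q S z e f) (hΓ : Full Γ z e f) {v w : V} (hv : v ∈ S)
    (hw : w ∈ S) (hq : Q w ≠ 0) (hvw : Q v = Q w) (h1 : ∃ y ∈ S, polar Q v y ≠ 0)
    (h2 : ∃ y ∈ S, polar Q w y ≠ 0) (h3 : refl Q w ∈ Γ) : refl Q v ∈ Γ := by
  obtain ⟨γ, h4, ε, h5, h6⟩ := h.trans hΓ hv hw hq hvw h1 h2
  rw [← refl_smul h5, ← h6, ← refl_conj]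
  exact Γ.mul_mem (Γ.mul_mem h4 h3) (Γ.inv_mem h4)

theorem exists_sq [FiniteDimensional F V] (h : Mdl Q S z e f) (hQ : Nondeg Q) (h2 : (2 : F) ≠ 0)
    (hΓ : Full Γ z e f) (hS : Γ ≤ movIn Q S) (c : F) : ∃ γ ∈ Γ, γ * γ = eich Q e (c • z) := by
  have hd : det !![1, -(c / 2 * Q z); 0, 1] = 1 := by simp
  obtain ⟨A, hA⟩ := H97o.exists_GL (hd ▸ one_ne_zero)
  obtain ⟨γ, h1, ε, h3, h4⟩ := hΓ A (hA ▸ hd)
  have h5 : polar Q e ((c / 2) • z) = 0 := by rw [B_smul_right, h.hez, mul_zero]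
  have h6 : ∀ x ∈ S, γ.1 x = ε • (eich Q e ((c / 2) • z)).1 x := fun x hx => by
    obtain ⟨X, hX, rfl⟩ := h.onto x hx
    set s := c / 2 * Q z with hs
    have h7 : A.val * X * (A⁻¹).val = !![X 0 0 - s * X 1 0, X 0 1 + 2 * s * X 0 0 - s ^ 2 * X 1 0;
        X 1 0, -X 0 0 + s * X 1 0] := by
      rw [conj_eq_iff, hA]
      ext i j
      fin_cases i <;> fin_cases j <;> simp [Matrix.mul_apply, Fin.sum_univ_two, tr0 hX] <;> ring
    rw [h4 X hX, h7, eich_apply h.hyp.he h5]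
    simp only [psi_apply, polar_add_left, B_smul_left, B_smul_right, B_self, Q_smul,
      h.hez, h.hfz, B_symm h.hez, h.hyp.he, h.hyp.hfe, hs]
    simp only [of_apply, cons_val', cons_val_zero, cons_val_one, cons_val_fin_one]
    module
  have h7 := eich_mem_movIn (Q := Q) h.em (S.smul_mem (c / 2) h.zm)
  refine ⟨γ, h1, O.ext fun x => ?_⟩
  rw [show c • z = (c / 2) • z + (c / 2) • z by
    rw [← add_smul]; congr 1; field_simp; ring, eich_add h.hyp.he h5 h5]
  set s := polar Q f x • e + polar Q e x • f + ((2 * Q z)⁻¹ * polar Q z x) • z with hs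
  have h8 : s ∈ S := S.add_mem (S.add_mem (S.smul_mem _ h.em) (S.smul_mem _ h.fm)) (S.smul_mem _ h.zm)
  have h9 : ∀ w ∈ S, polar Q (x - s) w = 0 := fun w hw => by
    obtain ⟨X, -, rfl⟩ := h.onto w hw
    have := h.hz
    simp only [hs, psi_apply, polar_sub_left, polar_add_left, polar_add_right, B_smul_left,
      B_smul_right, B_self, h.hez, h.hfz, B_symm h.hez, B_symm h.hfz, h.hyp.he, h.hyp.hf,
      h.hyp.hef, h.hyp.hfe, polar_comm Q x]
    field_simp
    ring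
  have h10 := movIn_fix hQ (hS h1) h9
  have h11 := movIn_fix hQ h7 h9
  clear_value s
  rw [← add_sub_cancel s x, O.mul_apply, O.mul_apply, map_add, map_add, map_add, map_add, h10, h10,
    h11, h11, h6 s h8, map_smul, h6 _ (movIn_apply h7 h8), smul_smul, h3, one_smul]

theorem tau_mul (h : Mdl Q S z e f) {A C : GL (Fin 2) F} (hA : A.val.trace = 0)
    (hC : C.val.trace = 0) {n : F} (hn : polar Q (psi Q z e f A.val) (psi Q z e f C.val) ^ 2 ≠
      n * (Q (psi Q z e f A.val) * Q (psi Q z e f C.val))) :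
    H29.tau (ProjGenLinGroup.mk (A * C) : PGL(2, F)) ≠ n := fun h1 => hn (by
  rw [H29.tau_mk, div_eq_iff (A * C).det_ne_zero, Units.val_mul, det_mul] at h1
  rw [h.B_psi hA hC, h.Q_psi hA, h.Q_psi hC]
  linear_combination Q z ^ 2 * h1)

/-- Overgroups of a dihedral group of order eight over a prime field. -/
theorem full_of_eight [Fintype F] (h : Mdl Q S z e f) (hF : (Fintype.card F).Prime)
    (h2 : (2 : F) ≠ 0) {a b y u : V} (ha : a ∈ S) (hb : b ∈ S) (hu : u ∈ S)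
    (hS : ∀ x ∈ S, polar Q x a = 0 → polar Q x b = 0 → x ∈ F ∙ y) (hqa : Q a ≠ 0)
    (hab : Q b = Q a) (hB : polar Q a b = 0) (hq : Q u ≠ 0) (h1 : polar Q y u ≠ 0)
    (h3 : polar Q y u ^ 2 ≠ 2 * Q y * Q u) (h4 : u ∉ F ∙ y) (m1 : refl Q a ∈ Γ)
    (m2 : refl Q (a - b) ∈ Γ) (m3 : refl Q u ∈ Γ) : Full Γ z e f := by
  have hz := h.hz
  obtain ⟨A, hA, rfl⟩ := h.exists_GL ha hqa
  obtain ⟨B, hB', rfl⟩ := h.exists_GL hb (hab ▸ hqa)
  obtain ⟨U, hU, rfl⟩ := h.exists_GL hu hq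
  have hE : (A.val - B.val).trace = 0 := by rw [trace_sub, hA, hB', sub_zero]
  have h5 := h.Q_psi hE
  rw [map_sub, Q_sub, hab, hB, sub_zero, ← two_mul] at h5
  obtain ⟨E, hE'⟩ := H97o.exists_GL (right_ne_zero_of_mul (h5 ▸ mul_ne_zero h2 hqa))
  rw [h.Q_psi hA, h.Q_psi hB'] at hab
  have h6 := mul_left_cancel₀ (neg_ne_zero.2 hz) hab
  rw [h.B_psi hA hB'] at hB
  have hP : (A * B).val.trace = 0 := (mul_eq_zero.1 hB).resolve_left hz
  have h7 : ((ProjGenLinGroup.mk A : PGL(2, F)) * ProjGenLinGroup.mk E) ^ 2 =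
      ProjGenLinGroup.mk (A * B) := by
    rw [← map_mul, ← map_pow, eq_comm, H29.pgl_mk_eq_mk_iff]
    refine ⟨2 * A.val.det, mul_ne_zero h2 A.det_ne_zero, ?_⟩
    have := sq_tr0 hP
    rw [Units.val_mul, det_mul, h6] at this
    rw [pow_two, Units.val_mul, Units.val_mul, hE', mul_sub, sq_tr0 hA, Units.val_mul, sub_mul,
      mul_sub, mul_sub, this]
    simp only [smul_mul_assoc, mul_smul_comm, one_mul, mul_one]
    module
  obtain ⟨c, hc⟩ := Submodule.mem_span_singleton.1 (hS _ (h.psi_mem (A * B).val)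
    (by rw [h.B_psi hP hA, Units.val_mul, trace_mul_cycle, sq_tr0 hA, smul_mul_assoc, one_mul,
      trace_smul, hB', smul_zero, mul_zero])
    (by rw [h.B_psi hP hB', Units.val_mul, mul_assoc, sq_tr0 hB', mul_smul_comm, mul_one,
      trace_smul, hA, smul_zero, mul_zero]))
  have hc0 : c ≠ 0 := by
    rintro rfl
    have := h.Q_psi hP
    rw [← hc, zero_smul, map_zero] at this
    exact mul_ne_zero (neg_ne_zero.2 hz) (A * B).det_ne_zero this.symm
  have n1 := Subgroup.mem_map_of_mem ProjGenLinGroup.mk (h.mem_Del hA m1)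
  have n2 := Subgroup.mem_map_of_mem ProjGenLinGroup.mk
    (h.mem_Del (Γ := Γ) (Y := E) (hE' ▸ hE) (by rwa [hE', map_sub]))
  have n3 := Subgroup.mem_map_of_mem ProjGenLinGroup.mk (h.mem_Del hU m3)
  refine full_of_toPGL (H98.toPGL_mem_of_four (by rwa [Nat.card_eq_fintype_card])
    (fun h8 => h2 (two_eq_zero_of_card_two (by rwa [← Nat.card_eq_fintype_card])))
    (Subgroup.mul_mem _ n1 n2) n1 n3 ?_ ?_ ?_ fun h8 => ?_)
  · rw [show 4 = 2 + 2 from rfl, pow_add, h7, mk_sq_tr0 hP]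
  · rw [h7]
    intro h8
    have := H29.tau_mk (A * B)
    rw [h8, tau_one, hP] at this
    exact mul_ne_zero h2 h2 (by linear_combination this)
  · rw [_root_.mul_inv_rev, ← mul_assoc, mk_sq_tr0 hA, one_mul, inv_eq_of_sq (mk_sq_tr0 (Y := E) (hE' ▸ hE)),
      inv_eq_of_sq (mk_sq_tr0 hA)]
  rw [h7, ← map_inv, ← map_mul, ← map_mul] at h8
  have hP' : (U * (A * B) * U⁻¹).val.trace = 0 := by
    rw [Units.val_mul, Units.val_mul, trace_units_conj, hP]
  have h9 := h.psi_conj hU hP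
  rw [← hc, map_smul, ← Units.val_mul, ← Units.val_mul] at h9
  obtain ⟨ε, h10, h11⟩ := exists_of_commute h8
  rcases mul_self_eq_one_iff.1 h10 with rfl | rfl
  · obtain ⟨s, t, h12⟩ := exists_of_comm (by
      rw [hP]; exact fun e => mul_ne_zero (mul_ne_zero h2 h2) (A * B).det_ne_zero
        (by linear_combination -e)) ((one_smul _ _).symm.trans h11.symm)
    rw [h12, trace_add, trace_smul, trace_smul, hP, trace_one, Fintype.card_fin, smul_zero,
      add_zero, smul_eq_zero] at hP'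
    rw [h12, hP'.resolve_right (by exact_mod_cast h2), zero_smul, zero_add, map_smul, ← hc] at h9
    refine h4 (mem_of_refl_mem hq h1 (Submodule.mem_span_singleton_self y)
      (Submodule.mem_span_singleton.2 ⟨-t, smul_right_injective V hc0 ?_⟩))
    beta_reduce
    linear_combination (norm := module) -h9
  · have h12 := anti_tr0 hP hP'
    rw [h11, neg_one_smul, eq_sub_iff_add_eq, neg_add_cancel, eq_comm, smul_eq_zero] at h12
    have h13 := h.B_psi hP hP'
    rw [h11, neg_one_smul, h12.resolve_right one_ne_zero, h9, ← hc, polar_neg_right, B_smul_left,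
      B_smul_right, refl_apply, polar_sub_right, B_smul_right, B_self] at h13
    refine h3 (mul_left_cancel₀ (mul_ne_zero hc0 hc0) ?_)
    field_simp at h13
    linear_combination h13

/-- Overgroups of the orthogonal group of a plane. -/
theorem full_of_torus [Finite F] (h : Mdl Q S z e f) {a c y : V} (ha : a ∈ S) (hc : c ∈ S)
    (hy : y ∈ S) (hqa : Q a ≠ 0) (hqc : Q c ≠ 0) (hqy : Q y ≠ 0) (hya : polar Q y a = 0)
    (hyc : polar Q y c = 0) (t4 : polar Q a c ^ 2 ≠ 4 * (Q a * Q c)) (t0 : polar Q a c ≠ 0)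
    (t2 : polar Q a c ^ 2 ≠ 2 * (Q a * Q c)) {s' t' : F} (hq' : Q (s' • a + t' • c) ≠ 0)
    (t4' : polar Q a (s' • a + t' • c) ^ 2 ≠ 4 * (Q a * Q (s' • a + t' • c)))
    (t1' : polar Q a (s' • a + t' • c) ^ 2 ≠ 1 * (Q a * Q (s' • a + t' • c)))
    (hΓ : ∀ s t : F, Q (s • a + t • c) ≠ 0 → refl Q (s • a + t • c) ∈ Γ) {s t : F}
    (hst : ¬ (s = 0 ∧ t = 0)) (hq : Q (s • a + t • c + y) ≠ 0)
    (hu : refl Q (s • a + t • c + y) ∈ Γ) : Full Γ z e f := by
  have hz := h.hz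
  obtain ⟨A, hA, rfl⟩ := h.exists_GL ha hqa
  obtain ⟨C, hC, rfl⟩ := h.exists_GL hc hqc
  obtain ⟨Y, hY, rfl⟩ := h.exists_GL hy hqy
  have htr : ∀ s t : F, (s • A.val + t • C.val).trace = 0 := fun s t => by
    rw [trace_add, trace_smul, trace_smul, hA, hC, smul_zero, smul_zero, add_zero]
  have hmem : ∀ (G : GL (Fin 2) F) (s t : F), G.val = s • A.val + t • C.val → G ∈ Del Γ z e f :=
    fun G s t hG => h.mem_Del (hG ▸ htr s t) (by
      have := h.Q_psi (hG ▸ htr s t : G.val.trace = 0)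
      rw [hG, map_add, map_smul, map_smul] at this ⊢
      exact hΓ s t (this ▸ hG ▸ mul_ne_zero (neg_ne_zero.2 hz) G.det_ne_zero))
  have hU : (s • A.val + t • C.val + Y.val).trace = 0 := by rw [trace_add, htr, hY, add_zero]
  have e1 := h.Q_psi hU
  have e2 := h.Q_psi (htr s' t')
  simp only [map_add, map_smul] at e1 e2
  obtain ⟨U, hU'⟩ := H97o.exists_GL (right_ne_zero_of_mul (e1 ▸ hq))
  obtain ⟨C', hC'⟩ := H97o.exists_GL (right_ne_zero_of_mul (e2 ▸ hq'))
  rw [← hU'] at hU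
  have mA := hmem A 1 0 (by simp)
  have τ4 := h.tau_mul hA hC t4
  have τ0 := h.tau_mul hA hC (n := 0) (by simpa using t0)
  have hT : (A * C).val.trace ≠ 0 := fun e => τ0 (by rw [H29.tau_mk, e]; simp)
  have hD : (A * C).val.trace ^ 2 ≠ 4 * (A * C).val.det := fun e =>
    τ4 (by rw [H29.tau_mk, e, mul_div_cancel_right₀ _ (A * C).det_ne_zero])
  refine full_of_toPGL (toPGL_mem_of_torus (ρ' := ProjGenLinGroup.mk (A * C'))
    (s := ProjGenLinGroup.mk A) (g := ProjGenLinGroup.mk U) (fun γ hγ => ?_)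
    (Subgroup.mem_map_of_mem _ mA) (Subgroup.mem_map_of_mem _ (h.mem_Del hU (by
      rwa [hU', map_add, map_add, map_smul, map_smul]))) τ4 τ0 (h.tau_mul hA hC t2)
    (h.tau_mul hA (hC' ▸ htr s' t') (by rwa [hC', map_add, map_smul, map_smul]))
    (h.tau_mul hA (hC' ▸ htr s' t') (by rwa [hC', map_add, map_smul, map_smul])) ?_ ?_ fun h1 => ?_)
  · induction γ using ProjGenLinGroup.induction_on with | mk G =>
    obtain ⟨x, w, h1⟩ := exists_of_comm hD (comm_of_commute hT hγ.symm)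
    refine Subgroup.mem_map_of_mem _ ?_
    rw [← mul_inv_cancel_left A G]
    refine Subgroup.mul_mem _ mA (hmem _ (-x / A.val.det) w ?_)
    have hd := A.det_ne_zero
    rw [Units.val_mul, Units.inv_mul_eq_iff_eq_mul, h1, mul_add, mul_smul_comm, mul_smul_comm,
      sq_tr0 hA, smul_smul, Units.val_mul]
    congr 2
    field_simp
  · refine Commute.map (Units.ext ?_ : A * C' * (A * C) = A * C * (A * C')) _
    simp only [Units.val_mul, hC', mul_add, add_mul, mul_smul_comm, smul_mul_assoc, sq_tr0 hA,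
      one_mul, mul_one]
  · rw [map_mul, _root_.mul_inv_rev, ← mul_assoc, mk_sq_tr0 hA, one_mul, inv_eq_of_sq (mk_sq_tr0 hC),
      inv_eq_of_sq (mk_sq_tr0 hA)]
  rw [← map_inv, ← map_mul, ← map_mul] at h1
  obtain ⟨x, w, h3⟩ := exists_of_comm hD (comm_of_commute hT h1.symm)
  rw [Units.val_mul, Units.val_mul, conj_eq_iff] at h3
  rw [h.B_psi hY hA, mul_eq_zero, or_iff_right hz] at hya
  rw [h.B_psi hY hC, mul_eq_zero, or_iff_right hz] at hyc
  have h4 : (A.val * C.val * Y.val).trace ≠ 0 := fun h4 => by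
    obtain ⟨x', w', h5⟩ := exists_of_comm (G := Y.val) hD (by
      rw [Units.val_mul, ← mul_assoc, anti_tr0 hY hA, hya, mul_assoc A.val, anti_tr0 hC hY,
        trace_mul_comm, hyc, zero_smul, zero_sub, zero_sub, neg_mul, mul_neg, mul_assoc])
    have h6 := hY
    have h7 := congrArg trace (H29.cayley_two (A * C).val)
    rw [← Units.val_mul, h5, mul_add, mul_smul_comm, mul_smul_comm, mul_one, trace_add, trace_smul,
      trace_smul, h7] at h4
    rw [h5, trace_add] at h6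
    simp only [trace_sub, trace_smul, trace_one, Fintype.card_fin, smul_eq_mul, Nat.cast_ofNat] at h4 h6
    have h8 : w' = 0 := (mul_eq_zero.1 (by linear_combination 2 * h4 - (A * C).val.trace * h6 :
      w' * ((A * C).val.trace ^ 2 - 4 * (A * C).val.det) = 0)).resolve_right (sub_ne_zero.2 hD)
    have h9 : x' = 0 := (mul_eq_zero.1 (by rw [h8] at h4; linear_combination h4 :
      x' * (A * C).val.trace = 0)).resolve_right hT
    exact Y.det_ne_zero (by rw [h5, h8, h9]; simp)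
  have h5 : (A.val * C.val * U.val).trace = (A.val * C.val * Y.val).trace := by
    rw [hU', mul_add, mul_add, mul_smul_comm, mul_smul_comm, trace_add, trace_add, trace_smul,
      trace_smul, trace_mul_cycle, mul_assoc _ C.val, sq_tr0 hA, sq_tr0 hC]
    simp [hA, hC]
  have h6 : ∀ G : Matrix (Fin 2) (Fin 2) F, G.trace = 0 → (G * (A.val * C.val)).trace = 0 →
      (G * U.val).trace = 0 := fun G g1 g2 => by
    have g3 : (G * U.val * (A.val * C.val * U.val)).trace = 0 := by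
      rw [mul_assoc, ← mul_assoc U.val, ← Units.val_mul A, h3, mul_assoc, sq_tr0 hU, mul_smul_comm,
        mul_smul_comm, mul_one, mul_add, mul_smul_comm, mul_smul_comm, mul_one, trace_smul,
        trace_add, trace_smul, trace_smul, g1, Units.val_mul, g2]
      simp
    have g4 : (U.val * G * (A.val * C.val * U.val)).trace = 0 := by
      rw [mul_assoc, ← mul_assoc G, ← mul_assoc, trace_mul_cycle, sq_tr0 hU, smul_mul_assoc,
        one_mul, trace_smul, g2, smul_zero]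
    rw [anti_tr0 g1 hU, sub_mul, trace_sub, g4, smul_mul_assoc, one_mul, trace_smul, h5, sub_zero,
      smul_eq_zero] at g3
    exact g3.resolve_right h4
  have h7 := h6 _ hA (by rw [← mul_assoc, sq_tr0 hA]; simp [hC])
  have h8 := h6 _ hC (by rw [← mul_assoc, trace_mul_cycle, sq_tr0 hC]; simp [hA])
  rw [hU', mul_add, mul_add, mul_smul_comm, mul_smul_comm, trace_add, trace_add, trace_smul,
    trace_smul, trace_mul_comm _ Y.val] at h7 h8
  rw [hya, sq_tr0 hA] at h7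
  rw [hyc, sq_tr0 hC, trace_mul_comm] at h8
  rw [Units.val_mul, det_mul] at hD
  simp only [trace_smul, trace_one, Fintype.card_fin, smul_eq_mul, Nat.cast_ofNat] at h7 h8
  exact hst ⟨mul_right_cancel₀ (sub_ne_zero.2 hD) (by
      linear_combination (A.val * C.val).trace * h8 + 2 * C.val.det * h7),
    mul_right_cancel₀ (sub_ne_zero.2 hD) (by
      linear_combination (A.val * C.val).trace * h7 + 2 * A.val.det * h8)⟩

end Mdl

theorem finrank_span_three {a b c : V}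
    (h : ∀ s t u : F, s • a + t • b + u • c = 0 → s = 0 ∧ t = 0 ∧ u = 0) :
    finrank F (Submodule.span F ({a, b, c} : Set V)) = 3 := by
  rw [show ({a, b, c} : Set V) = Set.range ![a, b, c] by ext; simp; tauto, finrank_span_eq_card,
    Fintype.card_fin]
  refine Fintype.linearIndependent_iff.2 fun g hg i => ?_
  obtain ⟨h1, h2, h3⟩ := h (g 0) (g 1) (g 2) (by simpa [Fin.sum_univ_three] using hg)
  fin_cases i
  exacts [h1, h2, h3]

theorem mem_three (a b c : V) : a ∈ Submodule.span F ({a, b, c} : Set V) ∧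
    b ∈ Submodule.span F ({a, b, c} : Set V) ∧ c ∈ Submodule.span F ({a, b, c} : Set V) :=
  ⟨Submodule.subset_span (by simp), Submodule.subset_span (by simp), Submodule.subset_span (by simp)⟩

theorem coef_eq_zero {a b y : V} (hD : polar Q a b ^ 2 ≠ 4 * (Q a * Q b)) (hya : polar Q y a = 0)
    (hyb : polar Q y b = 0) {s t u : F} (h1 : polar Q (s • a + t • b + u • y) a = 0)
    (h2 : polar Q (s • a + t • b + u • y) b = 0) : s = 0 ∧ t = 0 := by
  simp only [polar_add_left, B_smul_left, B_self, hya, hyb, polar_comm Q b a] at h1 h2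
  exact ⟨mul_right_cancel₀ (sub_ne_zero.2 hD) (by
      linear_combination polar Q a b * h2 - 2 * Q b * h1),
    mul_right_cancel₀ (sub_ne_zero.2 hD) (by linear_combination polar Q a b * h1 - 2 * Q a * h2)⟩

variable [FiniteDimensional F V]

theorem finrank_three {a b y : V} (hD : polar Q a b ^ 2 ≠ 4 * (Q a * Q b)) (hya : polar Q y a = 0)
    (hyb : polar Q y b = 0) (hy : Q y ≠ 0) :
    finrank F (Submodule.span F ({a, b, y} : Set V)) = 3 :=
  finrank_span_three fun s t u h => by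
    obtain ⟨rfl, rfl⟩ := coef_eq_zero hD hya hyb (s := s) (t := t) (u := u)
      (by rw [h, polar_zero_left]) (by rw [h, polar_zero_left])
    simpa [ne_zero_of_Q_ne hy] using h

theorem exists_mdl {a b y : V} (hD : polar Q a b ^ 2 ≠ 4 * (Q a * Q b)) (hya : polar Q y a = 0)
    (hyb : polar Q y b = 0) (hy : Q y ≠ 0) {d : V} (hd : d ∈ Submodule.span F ({a, b, y} : Set V))
    (h0 : d ≠ 0) (hq : Q d = 0) : ∃ z f, Mdl Q (Submodule.span F {a, b, y}) z d f := by
  have h3 := finrank_three hD hya hyb hy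
  obtain ⟨ma, mb, -⟩ := mem_three (F := F) a b y
  set S := Submodule.span F ({a, b, y} : Set V)
  have hS : ∀ x ∈ S, x ≠ 0 → Q x = 0 → ∃ w ∈ S, polar Q x w ≠ 0 := fun x hx h1 h2 => by
    by_contra h4
    push Not at h4
    obtain ⟨s, t, u, rfl⟩ := Submodule.mem_span_triple.1 hx
    obtain ⟨rfl, rfl⟩ := coef_eq_zero hD hya hyb (h4 a ma) (h4 b mb)
    simp only [zero_smul, zero_add, Q_smul, mul_eq_zero, hy, or_false, pow_eq_zero_iff two_ne_zero]
      at h1 h2
    exact h1 (by rw [h2, zero_smul])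
  obtain ⟨w, hw, h1⟩ := hS d hd h0 hq
  obtain ⟨α, β, -, hf⟩ := exists_hyp_of_B_ne hq h1
  have mf := S.add_mem (S.smul_mem α hw) (S.smul_mem β hd)
  generalize α • w + β • d = f at hf mf
  have d1 := finrank_inf_orth (Q := Q) S d
  have d2 := finrank_inf_orth (Q := Q) (S ⊓ orth Q d) f
  obtain ⟨z, ⟨⟨mz, h4⟩, h5⟩, h6⟩ := exists_notMem_of_lt (W := S ⊓ orth Q d ⊓ orth Q f) (U := ⊥)
    (by rw [finrank_bot]; omega)
  rw [SetLike.mem_coe, mem_orth] at h4 h5
  rw [Submodule.mem_bot] at h6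
  have h7 : Submodule.span F {z, d, f} = S := Submodule.eq_of_le_of_finrank_le
    (Submodule.span_le.2 (by rintro _ (rfl | rfl | rfl) <;> assumption))
    (h3.trans (finrank_span_three fun s t u h => by
      have e1 := congrArg (polar Q d) h
      have e2 := congrArg (polar Q f) h
      simp only [polar_add_right, B_smul_right, h4, h5, hf.hee, hf.hef, hf.hfe, hf.hff,
        polar_zero_right, mul_zero, mul_one, zero_add, add_zero] at e1 e2
      simpa [e1, e2, h6] using h).symm).le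
  have h8 : Q z ≠ 0 := fun h8 => by
    obtain ⟨x, hx, h9⟩ := hS z mz h6 h8
    rw [← h7] at hx
    obtain ⟨s, t, u, rfl⟩ := Submodule.mem_span_triple.1 hx
    simp [B_sing h8, B_symm h4, B_symm h5] at h9
  refine ⟨z, f, hf, h4, h5, h8, mz, hd, mf, fun x hx => ?_⟩
  rw [← h7] at hx
  obtain ⟨s, t, u, rfl⟩ := Submodule.mem_span_triple.1 hx
  exact ⟨!![s, t; u / Q z, -s], by simp [trace_fin_two], by simp [psi_apply, h8]⟩

theorem exists_mdl' [Finite F] {a b y : V} (hD : polar Q a b ^ 2 ≠ 4 * (Q a * Q b))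
    (hya : polar Q y a = 0) (hyb : polar Q y b = 0) (hy : Q y ≠ 0) :
    ∃ z d f, Mdl Q (Submodule.span F {a, b, y}) z d f := by
  obtain ⟨d, h1, h2, h3⟩ := exists_sing_in Q _ (finrank_three hD hya hyb hy).ge
  obtain ⟨z, f, h⟩ := exists_mdl hD hya hyb hy h1 h2 h3
  exact ⟨z, d, f, h⟩

theorem eight [Fintype F] (hQ : Nondeg Q) (hF : (Fintype.card F).Prime) (h2 : (2 : F) ≠ 0)
    {Γ : Subgroup (O Q)} {a b y : V} {s t : F} (hqa : Q a ≠ 0) (hab : Q b = Q a)
    (hB : polar Q a b = 0) (hya : polar Q y a = 0) (hyb : polar Q y b = 0) (hy : Q y ≠ 0)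
    (hst : ¬ (s = 0 ∧ t = 0)) (hq : Q (s • a + t • b + y) ≠ 0) (hne : Q (s • a + t • b + y) ≠ 2 * Q y)
    (m1 : refl Q a ∈ Γ) (m2 : refl Q (a - b) ∈ Γ) (m3 : refl Q (s • a + t • b + y) ∈ Γ) :
    (∀ v ∈ Submodule.span F ({a, b, y} : Set V), Q v = Q a → ∃ γ ∈ Γ, ∃ ε : F, ε ≠ 0 ∧ γ.1 a = ε • v) ∧
    ∀ d ∈ Submodule.span F ({a, b, y} : Set V), ∀ w ∈ Submodule.span F ({a, b, y} : Set V),
      Q d = 0 → polar Q d w = 0 → ∃ γ ∈ Γ, γ * γ = eich Q d w := by
  have hD : polar Q a b ^ 2 ≠ 4 * (Q a * Q b) := fun e =>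
    mul_ne_zero (mul_ne_zero h2 h2) (mul_ne_zero hqa hqa) (by rw [hB, hab] at e; linear_combination -e)
  obtain ⟨ma, mb, my⟩ := mem_three (F := F) a b y
  have mu := Submodule.add_mem _ (Submodule.add_mem _ (Submodule.smul_mem _ s ma)
    (Submodule.smul_mem _ t mb)) my
  have h1 : polar Q y (s • a + t • b + y) = 2 * Q y := by
    simp only [polar_add_right, B_smul_right, hya, hyb, B_self]; ring
  have key : ∀ z d f, Mdl Q (Submodule.span F {a, b, y}) z d f →
      Full (Γ ⊓ movIn Q (Submodule.span F {a, b, y})) z d f := fun z d f h =>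
    h.full_of_eight hF h2 ma mb mu (y := y) (fun x hx h3 h4 => by
        obtain ⟨s, t, u, rfl⟩ := Submodule.mem_span_triple.1 hx
        obtain ⟨rfl, rfl⟩ := coef_eq_zero hD hya hyb h3 h4
        simpa using Submodule.smul_mem _ u (Submodule.mem_span_singleton_self y))
      hqa hab hB hq (h1 ▸ mul_ne_zero h2 hy)
      (fun e => hne (mul_left_cancel₀ (mul_ne_zero h2 hy) (by rw [h1] at e; linear_combination -e)))
      (fun e => by
        obtain ⟨c, hc⟩ := Submodule.mem_span_singleton.1 e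
        exact hst (coef_eq_zero hD hya hyb (u := 1) (by rw [one_smul, ← hc, B_smul_left, hya, mul_zero])
          (by rw [one_smul, ← hc, B_smul_left, hyb, mul_zero])))
      ⟨m1, refl_mem_movIn ma⟩ ⟨m2, refl_mem_movIn (Submodule.sub_mem _ ma mb)⟩ ⟨m3, refl_mem_movIn mu⟩
  refine ⟨fun v hv h3 => ?_, fun d hd w hw h3 h4 => ?_⟩
  · obtain ⟨z, d, f, h⟩ := exists_mdl' hD hya hyb hy
    obtain ⟨γ, h4, h5⟩ := h.trans (key z d f h) hv ma hqa h3
      ⟨v, hv, by rw [B_self, h3]; exact mul_ne_zero h2 hqa⟩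
      ⟨a, ma, by rw [B_self]; exact mul_ne_zero h2 hqa⟩
    exact ⟨γ, h4.1, h5⟩
  by_cases h0 : d = 0
  · exact ⟨1, Γ.one_mem, by rw [h0, eich_zero_left, mul_one]⟩
  obtain ⟨z, f, h⟩ := exists_mdl hD hya hyb hy hd h0 h3
  obtain ⟨X, -, rfl⟩ := h.onto w hw
  obtain ⟨γ, h5, h6⟩ := h.exists_sq hQ h2 (key z d f h) inf_le_right (X 0 0)
  refine ⟨γ, h5.1, ?_⟩
  rw [psi_apply] at h4 ⊢
  simp only [polar_add_right, B_smul_right, h.hez, h.hyp.hee, h.hyp.hef, mul_zero, mul_one,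
    zero_add] at h4
  rw [h4, zero_smul, add_zero, eich_add_smul_self h3 (by rw [B_smul_right, h.hez, mul_zero]), h6]

theorem mem_plane {W : Submodule F V} (hW : finrank F W = 2) {a c : V} (ha : a ∈ W) (hc : c ∈ W)
    (hD : polar Q a c ^ 2 ≠ 4 * (Q a * Q c)) {x : V} (hx : x ∈ W) : ∃ s t : F, s • a + t • c = x := by
  have h1 : LinearIndependent F ![a, c] := LinearIndependent.pair_iff.2 fun s t h =>
    coef_eq_zero (y := 0) (u := 0) hD (polar_zero_left _ _) (polar_zero_left _ _)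
      (by rw [h]; simp) (by rw [h]; simp)
  have h2 := finrank_span_eq_card h1
  rw [range_cons_cons_empty, Fintype.card_fin] at h2
  rw [← Submodule.eq_of_le_of_finrank_le (S₁ := Submodule.span F {a, c})
    (Submodule.span_le.2 (by rintro _ (rfl | rfl) <;> assumption)) (hW.trans h2.symm).le] at hx
  exact Submodule.mem_span_pair.1 hx

/-- In characteristic two, a reflection as a product of three commuting ones. -/
theorem refl_eq_three (h2 : (2 : F) = 0) {b y : V} (hy : Q y ≠ 0) (hb : polar Q b y = 0)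
    {α β γ : F} (h1 : Q (b + α • y) ≠ 0) (h3 : Q (b + β • y) ≠ 0) (h4 : Q (b + γ • y) ≠ 0)
    (h : (Q (b + α • y))⁻¹ + (Q (b + β • y))⁻¹ + (Q (b + γ • y))⁻¹ = 0) :
    refl Q y = refl Q (b + α • y) * refl Q (b + β • y) * refl Q (b + γ • y) := by
  have e : ∀ s t : F, polar Q (b + s • y) (b + t • y) = 0 := fun s t => by
    simp only [polar_add_left, polar_add_right, B_smul_left, B_smul_right, B_self, hb, B_symm hb, h2]
    ring
  have e' : ∀ s : F, s ^ 2 * Q y * (Q (b + s • y))⁻¹ = (Q (b + s • y) - Q b) * (Q (b + s • y))⁻¹ :=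
    fun s => by rw [Q_add, Q_smul, B_smul_right, hb]; ring
  have e1 := e' α
  have e2 := e' β
  have e3 := e' γ
  rw [sub_mul, mul_inv_cancel₀ ‹_›] at e1 e2 e3
  refine O.ext fun x => ?_
  simp only [O.mul_apply, refl_apply, polar_sub_left, B_smul_left, e, mul_zero, sub_zero]
  simp only [polar_add_right, B_smul_right]
  generalize (Q (b + α • y))⁻¹ = p, (Q (b + β • y))⁻¹ = q, (Q (b + γ • y))⁻¹ = r at *
  have e4 : α * p + β * q + γ * r = 0 := pow_eq_zero_iff two_ne_zero |>.1 (mul_left_cancel₀ hy (by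
    linear_combination p * e1 + q * e2 + r * e3 + (1 - Q b * (p + q + r)) * h + (Q y * (α * p * β * q +
      α * p * γ * r + β * q * γ * r) + Q b * (p * q + p * r + q * r)) * h2))
  have e5 : α ^ 2 * p + β ^ 2 * q + γ ^ 2 * r = (Q y)⁻¹ := mul_left_cancel₀ hy (by
    rw [mul_inv_cancel₀ hy]; linear_combination e1 + e2 + e3 - Q b * h + h2)
  rw [← e5]
  linear_combination (norm := module) (polar Q x b * h + polar Q x y * e4) • b +
    (polar Q x b * e4) • y

theorem torus [Fintype F] (hF : 4 ≤ Fintype.card F) {Γ : Subgroup (O Q)} {W : Submodule F V}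
    (hW : NdOn Q W) (hW2 : finrank F W = 2) {a c c' y w : V} (ha : a ∈ W) (hc : c ∈ W) (hc' : c' ∈ W)
    (hqa : Q a ≠ 0) (hqc : Q c ≠ 0) (hq' : Q c' ≠ 0) (t4 : polar Q a c ^ 2 ≠ 4 * (Q a * Q c))
    (t0 : polar Q a c ≠ 0) (t2 : polar Q a c ^ 2 ≠ 2 * (Q a * Q c))
    (t4' : polar Q a c' ^ 2 ≠ 4 * (Q a * Q c')) (t1' : polar Q a c' ^ 2 ≠ 1 * (Q a * Q c'))
    (hy : Q y ≠ 0) (hyW : ∀ x ∈ W, polar Q y x = 0) (hΓ : ∀ b ∈ W, refl Q b ∈ Γ) (hw : w ∈ W)
    (hw0 : w ≠ 0) (hq : Q (w + y) ≠ 0) (hu : refl Q (w + y) ∈ Γ) {x : V} (hx : x ∈ W) (l : F) :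
    refl Q (x + l • y) ∈ Γ := by
  obtain ⟨z, d, f, h⟩ := exists_mdl' t4 (hyW a ha) (hyW c hc) hy
  obtain ⟨ma, mc, my⟩ := mem_three (F := F) a c y
  have hle : ∀ x ∈ W, x ∈ Submodule.span F ({a, c, y} : Set V) := fun x hx => by
    obtain ⟨s, t, rfl⟩ := mem_plane hW2 ha hc t4 hx
    exact Submodule.add_mem _ (Submodule.smul_mem _ s ma) (Submodule.smul_mem _ t mc)
  obtain ⟨s, t, rfl⟩ := mem_plane hW2 ha hc t4 hw
  obtain ⟨s', t', rfl⟩ := mem_plane hW2 ha hc t4 hc'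
  have h1 := h.full_of_torus ma mc my hqa hqc hy (hyW a ha) (hyW c hc) t4 t0 t2 hq' t4' t1'
    (fun s t _ => hΓ _ (W.add_mem (W.smul_mem _ ha) (W.smul_mem _ hc)))
    (by rintro ⟨rfl, rfl⟩; simp at hw0) hq hu
  have key : ∀ x ∈ W, ∀ l : F, x ≠ 0 ∨ (2 : F) ≠ 0 → refl Q (x + l • y) ∈ Γ := fun x hx l h2 => by
    by_cases h3 : Q (x + l • y) = 0
    · rw [refl_of_Q_eq_zero h3]; exact Γ.one_mem
    have mv := Submodule.add_mem _ (hle x hx) (Submodule.smul_mem _ l my)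
    obtain ⟨b, hb, h4⟩ := hW.universal hW2.ge (Q (x + l • y))
    obtain ⟨b', hb', h5⟩ := hW.exists_B_ne hb (ne_zero_of_Q_ne (h4 ▸ h3))
    refine h.refl_mem h1 mv (hle b hb) (h4 ▸ h3) h4.symm ?_ ⟨b', hle b' hb', h5⟩ (hΓ b hb)
    rcases h2 with h2 | h2
    · obtain ⟨x', hx', h6⟩ := hW.exists_B_ne hx h2
      exact ⟨x', hle x' hx', by rwa [polar_add_left, B_smul_left, hyW x' hx', mul_zero, add_zero]⟩
    · exact ⟨_, mv, by rw [B_self]; exact mul_ne_zero h2 h3⟩
  by_cases h2 : x ≠ 0 ∨ (2 : F) ≠ 0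
  · exact key x hx l h2
  push Not at h2
  by_cases hl : l = 0
  · rw [hl, zero_smul, add_zero]; exact hΓ x hx
  obtain ⟨r, hr, hr'⟩ := exists_ne_zero_one (F := F) (by omega)
  have h3 : ∀ v : F, ∃ α : F, Q (a + α • y) = v := fun v => by
    obtain ⟨α, hα⟩ := exists_sq_eq_of_two_eq_zero h2.2 ((v - Q a) / Q y)
    exact ⟨α, by rw [Q_add, Q_smul, B_smul_right, B_symm (hyW a ha), hα]; field_simp; ring⟩
  obtain ⟨α, hα⟩ := h3 1
  obtain ⟨β, hβ⟩ := h3 r⁻¹
  obtain ⟨γ, hγ⟩ := h3 (r - 1)⁻¹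
  have h4 := Or.inl (b := (2 : F) ≠ 0) (ne_zero_of_Q_ne hqa)
  rw [h2.1, zero_add, refl_smul hl, refl_eq_three h2.2 hy (B_symm (hyW a ha)) (hα ▸ one_ne_zero)
    (hβ ▸ inv_ne_zero hr) (hγ ▸ inv_ne_zero (sub_ne_zero.2 hr'))
    (by rw [hα, hβ, hγ, inv_inv, inv_inv, inv_one]; linear_combination r * h2.2)]
  exact Γ.mul_mem (Γ.mul_mem (key a ha _ h4) (key a ha _ h4)) (key a ha _ h4)

end H97o
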