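import Mathlib
import Cfsg.Agent.Base
import Cfsg.Agent.Lib.ClassMax.OFrame

/-!
The stabiliser in `Ω` of an orthogonal frame over a prime field is maximal.
-/

set_option autoImplicit false
set_option linter.unusedSectionVars false
set_option linter.unusedVariables false

namespace H97o

open Module Cfsg H12 QuadraticMap

theorem exists_mem_notMem_list {ι : Type*} [DecidableEq ι] (I : Finset ι) (l : List ι)
    (h : l.length < I.card) : ∃ a ∈ I, a ∉ l := by
  obtain ⟨a, h1, ha⟩ := Finset.exists_mem_notMem_of_card_lt_card (s := l.toFinset) (t := I)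
    (l.toFinset_card_le.trans_lt h)
  exact ⟨a, h1, by simpa using ha⟩

variable {F V : Type*} [Field F] [Fintype F] [AddCommGroup V] [Module F V] {Q : QuadraticForm F V}
  [FiniteDimensional F V] {ι : Type*} [Fintype ι] [DecidableEq ι] {e : ι → V} {c : ι → V →ₗ[F] F}
  {κ : F} {R X : Subgroup (O Q)}

theorem three_le_finrank {P : Submodule F V} {a b d v w : V} (ha : a ∈ P) (hb : b ∈ P) (hd : d ∈ P)
    (h0 : a ≠ 0) (h1 : polar Q v a = 0) (h2 : polar Q v b ≠ 0) (h3 : polar Q w a = 0)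
    (h4 : polar Q w b = 0) (h5 : polar Q w d ≠ 0) : 3 ≤ finrank F P := by
  rw [← finrank_span_three (F := F) (a := a) (b := b) (c := d) fun s t u h => by
    have e1 := congrArg (polar Q w) h
    have e2 := congrArg (polar Q v) h
    simp only [polar_add_right, B_smul_right, h1, h3, h4, polar_zero_right, mul_zero, zero_add,
      mul_eq_zero, h5, or_false] at e1 e2
    simp only [e1, zero_mul, add_zero, mul_eq_zero, h2, or_false] at e2
    simpa [e1, e2, h0] using h]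
  exact Submodule.finrank_mono (Submodule.span_le.2 (by rintro _ (rfl | rfl | rfl) <;> assumption))

theorem Om_le_of_extBy (hQ : Nondeg Q) (hG : Good Q) (hX : X ≤ Om Q) {a : V} (ha : Q a ≠ 0)
    (h : Om Q ≤ extBy X (refl Q a) (refl_mul_self a)) : Om Q ≤ X := fun g hg =>
  (mem_extBy.1 (h hg)).elim And.left fun h1 =>
    absurd (((Om Q).mul_mem_cancel_left hg).1 (hX h1.1)) (refl_notMem_Om hQ hG ha)

/-- The sign change on a set of coordinates. -/
def Sg (c : ι → V →ₗ[F] F) (J : Finset ι) (z : O Q) : Prop :=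
  ∀ l x, c l (z.1 x) = if l ∈ J then -c l x else c l x

theorem Sg.mul {J J' : Finset ι} {z z' : O Q} (h : Sg c J z) (h' : Sg c J' z') :
    Sg c (symmDiff J J') (z * z') := fun l x => by
  rw [O.mul_apply, h, h']
  by_cases h1 : l ∈ J <;> by_cases h2 : l ∈ J' <;> simp [Finset.mem_symmDiff, h1, h2]

namespace Fr

theorem good (h : Fr Q e c κ) : Good Q := good_of_two_ne_zero h.nd h.two

theorem e_ne (h : Fr Q e c κ) (i : ι) : e i ≠ 0 := ne_zero_of_Q_ne (h.Qe_ne i)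

theorem mem_span (h : Fr Q e c κ) {x : V} {i : ι} : x ∈ F ∙ e i ↔ ∀ l, l ≠ i → c l x = 0 :=
  ⟨fun h1 l hl => by
    obtain ⟨t, rfl⟩ := Submodule.mem_span_singleton.1 h1
    simp [h.ce, hl],
  fun h1 => h.mem_of_coord fun l hl => by
    rw [by_contra fun h2 => hl (h1 l h2)]; exact Submodule.mem_span_singleton_self _⟩

theorem mem_H (h : Fr Q e c κ) {g : O Q} (hg : ∀ i, ∃ j, g.1 (e i) ∈ F ∙ e j) :
    g ∈ Hh Q fun i => F ∙ e i := by
  refine mem_Hh_of_maps (fun i j hij => by_contra fun h1 => ?_)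
    (fun i j => by rw [finrank_span_singleton (h.e_ne i), finrank_span_singleton (h.e_ne j)])
    fun i => (hg i).imp fun j hj x hx => ?_
  · have := h.mem_span.1 (hij ▸ Submodule.mem_span_singleton_self (e i) : e i ∈ F ∙ e j) i h1
    simp [h.ce] at this
  · obtain ⟨t, rfl⟩ := Submodule.mem_span_singleton.1 hx
    rw [map_smul]; exact Submodule.smul_mem _ _ hj

theorem H_elim (h : Fr Q e c κ) {g : O Q} (hg : g ∈ Hh Q fun i => F ∙ e i) :
    ∃ σ : Equiv.Perm ι, ∀ i, ∃ t : F, t ≠ 0 ∧ g.1 (e i) = t • e (σ i) := by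
  obtain ⟨σ, hσ⟩ := Hh_elim hg
  refine ⟨σ, fun i => ?_⟩
  obtain ⟨t, ht⟩ := Submodule.mem_span_singleton.1
    ((hσ i _).1 (Submodule.mem_span_singleton_self (e i)))
  refine ⟨t, ?_, ht.symm⟩
  rintro rfl
  exact O.apply_ne_zero g (h.e_ne i) (by rw [← ht, zero_smul])

theorem refl_mem (h : Fr Q e c κ) (a : ι) : refl Q (e a) ∈ Hh Q fun i => F ∙ e i :=
  h.mem_H fun i => ⟨i, h.mem_span.2 fun l hl => by simp [h.c_refl, h.ce, hl]⟩

theorem sw_mem (h : Fr Q e c κ) {a b : ι} (hab : a ≠ b) :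
    refl Q (e a - e b) ∈ Hh Q fun i => F ∙ e i :=
  h.mem_H fun i => ⟨Equiv.swap a b i, h.mem_span.2 fun l hl => by
    rw [h.c_sw hab, h.ce, if_neg fun h1 => hl (by rw [← h1, Equiv.swap_apply_self])]⟩

theorem rr_mem (h : Fr Q e c κ) (a b : ι) :
    refl Q (e a) * refl Q (e b) ∈ (Hh Q fun i => F ∙ e i) ⊓ Om Q :=
  ⟨Subgroup.mul_mem _ (h.refl_mem a) (h.refl_mem b), rr_mem_Om h.nd (by rw [h.Qe, h.Qe])⟩

theorem ss_mem (h : Fr Q e c κ) {a b k l : ι} (hab : a ≠ b) (hkl : k ≠ l) :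
    refl Q (e a - e b) * refl Q (e k - e l) ∈ (Hh Q fun i => F ∙ e i) ⊓ Om Q :=
  ⟨Subgroup.mul_mem _ (h.sw_mem hab) (h.sw_mem hkl),
    rr_mem_Om h.nd (by rw [h.Q_sub hab, h.Q_sub hkl])⟩

theorem two_le (h : Fr Q e c κ) {v : V} (hv : Q v = κ) {i : ι} (h1 : c i v ≠ 0)
    (h2 : c i v ^ 2 ≠ 1) : 2 ≤ (supp c v).card := by
  by_contra h3
  have := h.sum_supp hv
  rw [Finset.eq_singleton_iff_unique_mem.2 ⟨mem_supp.2 h1, fun x hx =>
    Finset.card_le_one.1 (by omega) x hx i (mem_supp.2 h1)⟩, Finset.sum_singleton] at this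
  exact h2 this

theorem sg_rr (h : Fr Q e c κ) {a b : ι} (hab : a ≠ b) :
    Sg c {a, b} (refl Q (e a) * refl Q (e b)) := fun l x => by
  simp only [O.mul_apply, h.c_refl, Finset.mem_insert, Finset.mem_singleton]
  grind

theorem sg_eq (h : Fr Q e c κ) {J : Finset ι} {z z' : O Q} (h1 : Sg c J z) (h2 : Sg c J z') :
    z = z' := O.ext fun x => h.ext fun l => by rw [h1, h2]

theorem sg_inj (h : Fr Q e c κ) {J J' : Finset ι} {z : O Q} (h1 : Sg c J z) (h2 : Sg c J' z) :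
    J = J' := Finset.ext fun l => by
  have := (h1 l (e l)).symm.trans (h2 l (e l))
  have h3 := h.two
  rw [h.ce, if_pos rfl] at this
  grind

theorem sg_empty (h : Fr Q e c κ) : Sg c ∅ (1 : O Q) := fun l x => by simp

theorem exists_sg (h : Fr Q e c κ) (m : ℕ) (J : Finset ι) (hJ : J.card = 2 * m) :
    ∃ z ∈ (Hh Q fun i => F ∙ e i) ⊓ Om Q, Sg c J z := by
  induction m generalizing J with
  | zero => exact ⟨1, Subgroup.one_mem _, Finset.card_eq_zero.1 hJ ▸ h.sg_empty⟩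
  | succ m ih =>
    obtain ⟨a, b, ha, hb, hab⟩ := Finset.one_lt_card_iff.1 (by omega : 1 < J.card)
    obtain ⟨z, h1, h2⟩ := ih (J \ {a, b}) (by
      rw [Finset.card_sdiff_of_subset (by simp [Finset.insert_subset_iff, ha, hb]),
        Finset.card_pair hab]; omega)
    refine ⟨_, Subgroup.mul_mem _ (h.rr_mem a b) h1, ?_⟩
    convert (h.sg_rr hab).mul h2
    ext l
    simp only [Finset.mem_symmDiff, Finset.mem_sdiff, Finset.mem_insert, Finset.mem_singleton]
    grind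

theorem sg_mem (h : Fr Q e c κ) {J : Finset ι} {z : O Q} (hz : Sg c J z) {m : ℕ}
    (hJ : J.card = 2 * m) : z ∈ (Hh Q fun i => F ∙ e i) ⊓ Om Q ∧ z * z = 1 := by
  obtain ⟨z', h1, h2⟩ := h.exists_sg m J hJ
  exact ⟨h.sg_eq h2 hz ▸ h1, h.sg_eq (hz.mul hz) (by simpa using h.sg_empty)⟩

/-- A vector whose images are parallel or orthogonal to it. -/
theorem exists_mem_span (h : Fr Q e c κ) {f : V} (hf : Q f = κ) {I : Finset ι} (hI : 5 ≤ I.card)
    (hz : ∀ z ∈ (Hh Q fun i => F ∙ e i) ⊓ Om Q, (∀ x, (∀ a ∈ I, c a x = 0) → z.1 x = x) →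
      z.1 f = f ∨ z.1 f = -f ∨ polar Q f (z.1 f) = 0) {a : ι} (ha : a ∈ I) (hfa : c a f ≠ 0) :
    ∃ i, f ∈ F ∙ e i := by
  have h2 := h.two
  have hκ := h.hκ
  by_contra hcon
  have h1 : ∀ i, ¬ ∀ l, l ≠ i → c l f = 0 := fun i hi => hcon ⟨i, h.mem_span.2 hi⟩
  have h3 : ∀ J ⊆ I, ∀ m, J.card = 2 * m → (∀ l ∈ J, c l f = 0) ∨ (∀ l ∉ J, c l f = 0) ∨
      2 * ∑ l ∈ J, c l f ^ 2 = 1 := fun J hJ m hm => by
    obtain ⟨z, h3, h4⟩ := h.exists_sg m J hm
    refine (hz z h3 fun x hx => h.ext fun l => by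
      rw [h4]; split_ifs with h5
      exacts [by simp [hx l (hJ h5)], rfl]).imp (fun h5 l hl => ?_)
      (Or.imp (fun h5 l hl => ?_) fun h5 => ?_)
    · have := h4 l f
      rw [h5, if_pos hl] at this
      exact eq_zero_of_eq_neg h2 this
    · have := h4 l f
      rw [h5, if_neg hl, map_neg] at this
      exact eq_zero_of_eq_neg h2 this.symm
    · have e1 := h.B_eq f f
      rw [B_self, hf, ← Finset.sum_add_sum_compl J] at e1
      rw [h.B_eq, ← Finset.sum_add_sum_compl J, Finset.sum_congr rfl fun l hl => by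
        rw [h4, if_pos hl, mul_neg], Finset.sum_congr (s₁ := Jᶜ) rfl fun l hl => by
        rw [h4, if_neg (Finset.mem_compl.1 hl)], Finset.sum_neg_distrib] at h5
      simp only [pow_two]
      exact mul_left_cancel₀ (mul_ne_zero h2 hκ) (by linear_combination -h5 - e1)
  have h4 : ∀ i ∈ I, ∀ j ∈ I, i ≠ j → c i f ≠ 0 → (∀ l, l ≠ i → l ≠ j → c l f = 0) ∨
      2 * (c i f ^ 2 + c j f ^ 2) = 1 := fun i hi j hj hij h4 => by
    rcases h3 {i, j} (by simp [Finset.insert_subset_iff, hi, hj]) 1 (Finset.card_pair hij) with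
      h5 | h5 | h5
    · exact absurd (h5 i (by simp)) h4
    · exact Or.inl fun l l1 l2 => h5 l (by simp [l1, l2])
    · exact Or.inr (by rwa [Finset.sum_pair hij] at h5)
  by_cases h5 : ∃ k ∈ I, c k f = 0
  · obtain ⟨k, hk, h5⟩ := h5
    have h6 : ∀ i ∈ I, c i f ≠ 0 → 2 * c i f ^ 2 = 1 := fun i hi h6 => by
      rcases h4 i hi k hk (by rintro rfl; exact h6 h5) h6 with h7 | h7
      · exact absurd (fun l hl => by
          by_cases h8 : l = k
          exacts [h8 ▸ h5, h7 l hl h8]) (h1 i)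
      · rw [h5] at h7; linear_combination h7
    obtain ⟨d, hd, h7, h8⟩ : ∃ d ∈ I, k ≠ d ∧ c d f = 0 := by
      obtain ⟨b, hb, h7⟩ := exists_mem_notMem_list I [a, k] (by simp; omega)
      obtain ⟨d, hd, h8⟩ := exists_mem_notMem_list I [a, k, b] (by simp; omega)
      simp only [List.mem_cons, List.not_mem_nil, or_false, not_or] at h7 h8
      by_cases h9 : c b f = 0
      · exact ⟨b, hb, Ne.symm h7.2, h9⟩
      rcases h4 a ha b hb (Ne.symm h7.1) hfa with h10 | h10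
      · exact ⟨d, hd, Ne.symm h8.2.1, h10 d h8.1 h8.2.2⟩
      · exact absurd (by linear_combination h10 - h6 a ha hfa - h6 b hb h9) (one_ne_zero (α := F))
    have hak : a ≠ k := by rintro rfl; exact hfa h5
    have h9 := hz _ (h.ss_mem hak h7) fun x hx => by
      rw [O.mul_apply, h.sw_fix (a := k) (by rw [hx k hk, hx d hd]), h.sw_fix (by rw [hx k hk, hx a ha])]
    rw [O.mul_apply, h.sw_fix (a := k) (by rw [h5, h8])] at h9
    have h10 := h.c_sw hak k f
    rw [Equiv.swap_apply_right] at h10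
    rcases h9 with h9 | h9 | h9
    · exact hfa (by rw [← h10, h9, h5])
    · exact hfa (by rw [← h10, h9, map_neg, h5, neg_zero])
    · rw [refl_apply, polar_sub_right, B_smul_right, B_self, hf, h.Q_sub hak, polar_sub_right,
        h.Be', h.Be', h5] at h9
      field_simp at h9
      exact hκ (by linear_combination h9 + κ * h6 a ha hfa)
  · push Not at h5
    obtain ⟨b, hb, h7⟩ := exists_mem_notMem_list I [a] (by simp; omega)
    obtain ⟨k, hk, h8⟩ := exists_mem_notMem_list I [a, b] (by simp; omega)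
    obtain ⟨l, hl, h9⟩ := exists_mem_notMem_list I [a, b, k] (by simp; omega)
    obtain ⟨m, hm, h10⟩ := exists_mem_notMem_list I [a, b, k, l] (by simp; omega)
    simp only [List.mem_cons, List.not_mem_nil, or_false, not_or] at h7 h8 h9 h10
    have e1 := (h4 a ha b hb (Ne.symm h7) hfa).resolve_left fun h => h5 m hm (h m h10.1 h10.2.1)
    have e2 := (h4 k hk l hl (Ne.symm h9.2.2) (h5 k hk)).resolve_left fun h =>
      h5 m hm (h m h10.2.2.1 h10.2.2.2)
    rcases h3 {l, k, b, a} (by simp [Finset.insert_subset_iff, ha, hb, hk, hl]) 2 (by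
      rw [Finset.card_insert_of_notMem (by simp [h9]), Finset.card_insert_of_notMem (by simp [h8]),
        Finset.card_pair h7]) with h11 | h11 | h11
    · exact hfa (h11 a (by simp))
    · exact h5 m hm (h11 m (by simp [h10]))
    · rw [Finset.sum_insert (by simp [h9]), Finset.sum_insert (by simp [h8]), Finset.sum_pair h7] at h11
      exact one_ne_zero (α := F) (by linear_combination h11 - e1 - e2)

end Fr

theorem RR.mem_or (h : RR Q e c κ R) {g : O Q} (hg : g ∈ R) :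
    g ∈ (Hh Q fun i => F ∙ e i) ∨ Om Q ≤ R := by
  refine or_iff_not_imp_right.2 fun h1 => h.mem_H fun i => by_contra fun h2 => ?_
  have hu := (h.un_e i).apply hg
  set u := g.1 (e i) with hu'
  have h3 : ¬ NT c u := fun h3 => h1 (h.of_nt hu h3)
  obtain ⟨a, ha⟩ : ∃ a, c a u ≠ 0 := by_contra fun h4 =>
    O.apply_ne_zero g (h.e_ne i) (h.ext fun l => by simpa using not_exists.1 h4 l)
  obtain ⟨b, hab, hb⟩ : ∃ b, b ≠ a ∧ c b u ≠ 0 := by_contra fun h4 =>
    h2 ⟨a, h.mem_span.2 fun l hl => by simpa [hl] using not_exists.1 h4 l⟩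
  have h4 := Finset.one_lt_card_iff.2 ⟨a, b, mem_supp.2 ha, mem_supp.2 hb, hab.symm⟩
  have h5 : ¬ 3 ≤ (supp c u).card := fun h5 => h3 (Or.inl h5)
  have h6 : 2 * c b u ^ 2 = 1 := by_contra fun h6 => h3 (Or.inr ⟨h4, b, hb, h6⟩)
  obtain ⟨k, l, hkl, hk, hl⟩ := h.exists_zero (x := u) (by omega)
  have hbk : b ≠ k := by rintro rfl; exact hb hk
  have h7 := (h.un_sw hu hbk hkl (hk.trans hl.symm)).apply (R.inv_mem hg)
  have h8 : 2 * c i ((g⁻¹).1 ((refl Q (e b - e k)).1 u)) = 1 := by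
    have hκ := h.hκ
    have h8 := h.two
    have := h.Be i ((g⁻¹).1 ((refl Q (e b - e k)).1 u))
    rw [← O.B_apply_left, ← hu'] at this
    generalize c i ((g⁻¹).1 ((refl Q (e b - e k)).1 u)) = x at this ⊢
    rw [refl_apply, polar_sub_right, B_smul_right, B_self, hu.1, h.Q_sub hbk,
      polar_sub_right, h.Be', h.Be', hk] at this
    field_simp at this
    linear_combination -2 * this - h6
  generalize (g⁻¹).1 ((refl Q (e b - e k)).1 u) = v at h7 h8
  have h9 : c i v ≠ 0 := fun e => by simp [e] at h8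
  refine h1 (h.of_nt h7 (Or.inr ⟨h.two_le h7.1 h9 fun h10 => ?_, i, h9, fun h10 => ?_⟩))
  · have := sq_eq_one_of_three h.prime (by linear_combination (2 * c i v + 1) * h8 - 4 * h10) hb
    exact one_ne_zero (α := F) (by linear_combination h6 - 2 * this)
  · exact one_ne_zero (α := F) (by linear_combination (2 * c i v + 1) * h8 - 2 * h10)

namespace Fr

theorem mem_of_conj (h : Fr Q e c κ) (hH : (Hh Q fun i => F ∙ e i) ⊓ Om Q ≤ X) (hX : X ≤ Om Q)
    (hn : ¬ Om Q ≤ X) {g : O Q} (hg : g ∈ X) {a : ι} (h1 : refl Q (e a) * g * refl Q (e a) ∈ X) :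
    g ∈ Hh Q fun i => F ∙ e i := by
  refine (RR.mem_or (R := extBy X (refl Q (e a)) (refl_mul_self _)) ⟨h, fun i => Or.inr
    ⟨hH (h.rr_mem i a), hH (h.rr_mem a i)⟩, fun i j k l hij hkl => ?_⟩ (Or.inl ⟨hg, h1⟩)).resolve_right
    fun h2 => hn (Om_le_of_extBy h.nd h.good hX (h.Qe_ne a) h2)
  have h2 := h.ss_mem hij hkl
  refine Or.inl ⟨hH h2, hH ⟨Subgroup.mul_mem _ (Subgroup.mul_mem _ (h.refl_mem a) h2.1)
    (h.refl_mem a), ?_⟩⟩
  have := Subgroup.Normal.conj_mem inferInstance _ h2.2 (refl Q (e a))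
  rwa [refl_inv] at this

theorem mem_of_odd (h : Fr Q e c κ) (hH : (Hh Q fun i => F ∙ e i) ⊓ Om Q ≤ X) (hX : X ≤ Om Q)
    (hn : ¬ Om Q ≤ X) (ho : Odd (Fintype.card ι)) {g : O Q} (hg : g ∈ X) :
    g ∈ Hh Q fun i => F ∙ e i := by
  obtain ⟨m, hm⟩ := ho
  obtain ⟨a⟩ := Fintype.card_pos_iff.1 (by omega : 0 < Fintype.card ι)
  obtain ⟨z, h1, h2⟩ := h.exists_sg m {a}ᶜ (by rw [Finset.card_compl, Finset.card_singleton]; omega)
  have h3 : ∀ x, (refl Q (e a)).1 x = -z.1 x := fun x => h.ext fun l => by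
    rw [h.c_refl, map_neg, h2]; split_ifs <;> simp_all
  refine h.mem_of_conj hH hX hn hg (a := a) ?_
  rw [show refl Q (e a) * g * refl Q (e a) = z * g * z from O.ext fun x => by
    simp only [O.mul_apply, h3, map_neg, neg_neg]]
  exact X.mul_mem (X.mul_mem (hH h1) hg) (hH h1)

theorem mem_of_span (h : Fr Q e c κ) (hH : (Hh Q fun i => F ∙ e i) ⊓ Om Q ≤ X) (hX : X ≤ Om Q)
    (hn : ¬ Om Q ≤ X) {g : O Q} (hg : g ∈ X) {i j : ι} (h1 : g.1 (e i) ∈ F ∙ e j) :
    g ∈ Hh Q fun i => F ∙ e i := by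
  obtain ⟨t, ht⟩ := Submodule.mem_span_singleton.1 h1
  have h2 := refl_conj g (e i)
  rw [← ht, refl_smul (by rintro rfl; exact O.apply_ne_zero g (h.e_ne i) (by rw [← ht, zero_smul])),
    mul_inv_eq_iff_eq_mul] at h2
  refine h.mem_of_conj hH hX hn hg (a := j) ?_
  rw [← h2, mul_assoc]
  exact X.mul_mem hg (hH (h.rr_mem i j))

theorem mem_of_zero (h : Fr Q e c κ) (hH : (Hh Q fun i => F ∙ e i) ⊓ Om Q ≤ X) (hX : X ≤ Om Q)
    (hn : ¬ Om Q ≤ X) {g : O Q} (hg : g ∈ X) {i : ι} {I : Finset ι} (hI : 5 ≤ I.card)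
    (h1 : ∀ a ∈ I, c a (g.1 (e i)) = 0) : g ∈ Hh Q fun i => F ∙ e i := by
  obtain ⟨a, ha⟩ := Finset.card_pos.1 (by omega : 0 < I.card)
  obtain ⟨j, hj⟩ : ∃ j, c a (g.1 (e j)) ≠ 0 := by
    by_contra h2
    push Not at h2
    have := h.ce a a
    rw [← O.apply_inv_apply g (e a), ← h.sum ((g⁻¹).1 (e a))] at this
    simp [h2] at this
  obtain ⟨l, hl⟩ := h.exists_mem_span (f := g.1 (e j)) (by rw [O.map_Q, h.Qe]) hI (fun z hz h2 => by
    obtain ⟨σ, hσ⟩ := h.H_elim (h.mem_of_span hH hX hn (i := i) (j := i)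
      (X.mul_mem (X.mul_mem (X.inv_mem hg) (hH hz)) hg) (by
        rw [O.mul_apply, O.mul_apply, h2 _ h1, O.inv_apply_apply]
        exact Submodule.mem_span_singleton_self _))
    obtain ⟨t, -, ht⟩ := hσ j
    rw [O.mul_apply, O.mul_apply, O.inv_apply_eq_iff, map_smul] at ht
    by_cases h3 : σ j = j
    · rw [h3] at ht
      exact (eq_or_neg_of_smul (by rw [O.map_Q]; exact h.Qe_ne j) ht).imp id Or.inl
    · exact Or.inr (Or.inr (by rw [ht, B_smul_right, O.map_B, h.Be', h.ce, if_neg h3]; simp))) ha hj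
  exact h.mem_of_span hH hX hn hg hl

theorem mem_of_rr (h : Fr Q e c κ) (hH : (Hh Q fun i => F ∙ e i) ⊓ Om Q ≤ X) (hX : X ≤ Om Q)
    (hn : ¬ Om Q ≤ X) (h10 : 10 ≤ Fintype.card ι) {g : O Q} (hg : g ∈ X) {i j : ι} (hij : i ≠ j)
    (h1 : g * (refl Q (e i) * refl Q (e j)) * g⁻¹ ∈ Hh Q fun i => F ∙ e i) :
    g ∈ Hh Q fun i => F ∙ e i := by
  classical
  have h2 := rr_conj_mem_movIn g (e i) (e j)
  obtain ⟨y, hy⟩ := exists_mov_rr h.nd (h.Qe_ne i) (b := e j) fun h3 => by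
    simpa [h.ce] using h.mem_span.1 h3 i hij
  have h3 : g.1 y - (g * (refl Q (e i) * refl Q (e j)) * g⁻¹).1 (g.1 y) = g.1 (e i) := by
    rw [O.mul_apply, O.mul_apply, O.inv_apply_apply, ← map_sub, hy]
  generalize g * (refl Q (e i) * refl Q (e j)) * g⁻¹ = τ at h1 h2 h3
  obtain ⟨σ, hσ⟩ := h.H_elim h1
  have hκ := mul_ne_zero h.two h.hκ
  refine h.mem_of_zero hH hX hn hg (i := i) (I := Finset.univ.filter fun l => τ.1 (e l) = e l)
    (by_contra fun h4 => ?_) fun a ha => mul_left_cancel₀ hκ (by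
      rw [← h.Be, ← h3, O.B_fix_sub τ (Finset.mem_filter.1 ha).2, mul_zero])
  have h5 := Finset.card_filter_add_card_filter_not (s := Finset.univ) fun l => τ.1 (e l) = e l
  rw [Finset.card_univ] at h5
  set M := Finset.univ.filter fun l => ¬ τ.1 (e l) = e l
  obtain ⟨p, hp, -⟩ := exists_mem_notMem_list M [] (by rw [List.length_nil]; omega)
  obtain ⟨q, hq, h6⟩ := exists_mem_notMem_list M [p, σ p] (by simp; omega)
  obtain ⟨r, hr, h7⟩ := exists_mem_notMem_list M [p, σ p, q, σ q] (by simp; omega)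
  simp only [List.mem_cons, List.not_mem_nil, or_false, not_or] at h6 h7
  have h8 : ∀ l m, l ≠ m → l ≠ σ m → polar Q (e l) (e m - τ.1 (e m)) = 0 := fun l m l1 l2 => by
    obtain ⟨t, -, ht⟩ := hσ m
    simp [h.Be, ht, h.ce, l1, l2]
  have h9 : ∀ l ∈ M, polar Q (e l) (e l - τ.1 (e l)) ≠ 0 := fun l hl e1 => by
    obtain ⟨t, -, ht⟩ := hσ l
    refine (Finset.mem_filter.1 hl).2 ?_
    rw [h.Be, mul_eq_zero, or_iff_right hκ, ht, map_sub, map_smul, h.ce, h.ce, if_pos rfl] at e1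
    split_ifs at e1 with e2
    · rw [ht, ← e2, show t = 1 by rw [smul_eq_mul] at e1; linear_combination -e1, one_smul]
    · simp at e1
  have := three_le_finrank (h2 (e p)) (h2 (e q)) (h2 (e r)) (ne_zero_of_B_ne_right (h9 p hp))
    (h8 q p h6.1 h6.2) (h9 q hq) (h8 r p h7.1 h7.2.1) (h8 r q h7.2.2.1 h7.2.2.2) (h9 r hr)
  have := finrank_span_pair_le (F := F) (g.1 (e i)) (g.1 (e j))
  omega

theorem mem_of_commute (h : Fr Q e c κ) (hH : (Hh Q fun i => F ∙ e i) ⊓ Om Q ≤ X) (hX : X ≤ Om Q)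
    (hn : ¬ Om Q ≤ X) (h10 : 10 ≤ Fintype.card ι) {g : O Q} (hg : g ∈ X) {z : O Q} {J : Finset ι}
    (hz : Sg c J z) (h0 : J.Nonempty) (hJ : J.card ≤ 6) (h1 : Commute g z) :
    g ∈ Hh Q fun i => F ∙ e i := by
  have h2 : ∀ i l, c l (g.1 (z.1 (e i))) = if l ∈ J then -c l (g.1 (e i)) else c l (g.1 (e i)) :=
    fun i l => by rw [← O.mul_apply, h1.eq, O.mul_apply, hz]
  have h3 := Finset.card_compl J
  by_cases h4 : 5 ≤ J.card
  · obtain ⟨i, hi⟩ := Finset.card_pos.1 (by omega : 0 < Jᶜ.card)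
    refine h.mem_of_zero hH hX hn hg (i := i) h4 fun a ha => eq_zero_of_eq_neg h.two ?_
    have := h2 i a
    rwa [if_pos ha, show z.1 (e i) = e i from h.ext fun l => by
      rw [hz, h.ce]; split_ifs <;> simp_all] at this
  · obtain ⟨i, hi⟩ := h0
    refine h.mem_of_zero hH hX hn hg (i := i) (I := Jᶜ) (by omega) fun a ha =>
      eq_zero_of_eq_neg h.two ?_
    have := h2 i a
    rw [if_neg (Finset.mem_compl.1 ha), show z.1 (e i) = -e i from h.ext fun l => by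
      rw [hz, map_neg, h.ce]; split_ifs <;> simp_all, map_neg, map_neg] at this
    exact this.symm

theorem le_of_ten (h : Fr Q e c κ) (hH : (Hh Q fun i => F ∙ e i) ⊓ Om Q ≤ X) (hX : X ≤ Om Q)
    (hn : ¬ Om Q ≤ X) (h10 : 10 ≤ Fintype.card ι) : X ≤ (Hh Q fun i => F ∙ e i) ⊓ Om Q := by
  have := finiteO Q
  refine le_of_dihedral hH {z | ∃ J, J.card = 2 ∧ Sg c J z} {z | ∃ J, J.card = 4 ∧ Sg c J z}
    (fun t ⟨J, h1, h2⟩ => h.sg_mem h2 (m := 1) h1)
    (fun s ⟨J, h1, h2⟩ => ⟨(h.sg_mem h2 (m := 2) h1).1, (h.sg_mem h2 (m := 2) h1).2,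
      fun ⟨J', h3, h4⟩ => by rw [h.sg_inj h2 h4] at h1; omega⟩)
    (fun g hg t ⟨J, h1, h2⟩ h3 => ?_) (fun g hg t ⟨J, h1, h2⟩ => ?_)
    (fun s ⟨J, h1, h2⟩ g hg h3 => ⟨h.mem_of_commute hH hX hn h10 hg h2
      (Finset.card_pos.1 (by omega)) (by omega) h3, hX hg⟩)
    (fun t ⟨J, h1, h2⟩ s hs h3 g hg h4 => ?_) ?_
  · obtain ⟨i, j, hij, rfl⟩ := Finset.card_eq_two.1 h1
    rw [h.sg_eq h2 (h.sg_rr hij)] at h3
    exact ⟨h.mem_of_rr hH hX hn h10 hg hij h3.1, hX hg⟩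
  · obtain ⟨i, j, hij, rfl⟩ := Finset.card_eq_two.1 h1
    obtain ⟨σ, hσ⟩ := h.H_elim hg.1
    obtain ⟨r, hr, h3⟩ := hσ i
    obtain ⟨s, hs, h4⟩ := hσ j
    rw [h.sg_eq h2 (h.sg_rr hij), rr_conj, h3, h4, refl_smul hr, refl_smul hs]
    exact ⟨_, Finset.card_pair (σ.injective.ne hij), h.sg_rr (σ.injective.ne hij)⟩
  · obtain ⟨J', h5, h6⟩ : ∃ J' : Finset ι, J'.card ≤ 4 ∧ Sg c J' s := by
      rcases hs with ⟨J', h5, h6⟩ | ⟨J', h5, h6⟩ <;> exact ⟨J', by omega, h6⟩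
    have h7 := (Finset.card_le_card (Finset.symmDiff_subset_union (s := J) (t := J'))).trans
      (Finset.card_union_le J J')
    exact ⟨h.mem_of_commute hH hX hn h10 hg (h2.mul h6) (Finset.nonempty_iff_ne_empty.2 fun h8 =>
      h3 (h.sg_eq (h8 ▸ h2.mul h6) h.sg_empty)) (by omega) h4, hX hg⟩
  · obtain ⟨J, -, hJ⟩ := Finset.exists_subset_card_eq (s := (Finset.univ : Finset ι)) (n := 3)
      (by rw [Finset.card_univ]; omega)
    obtain ⟨a, b, ha, hb, hab⟩ := Finset.one_lt_card_iff.1 (by rw [Finset.card_compl]; omega : 1 < Jᶜ.card)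
    rw [Finset.mem_compl] at ha hb
    obtain ⟨z, -, h1⟩ := h.exists_sg 2 (insert a J) (by rw [Finset.card_insert_of_notMem ha, hJ])
    obtain ⟨z', -, h2⟩ := h.exists_sg 2 (insert b J) (by rw [Finset.card_insert_of_notMem hb, hJ])
    refine ⟨z, ⟨_, by rw [Finset.card_insert_of_notMem ha, hJ], h1⟩, z',
      ⟨_, by rw [Finset.card_insert_of_notMem hb, hJ], h2⟩, {a, b}, Finset.card_pair hab, ?_⟩
    convert h1.mul h2
    ext l
    simp only [Finset.mem_symmDiff, Finset.mem_insert, Finset.mem_singleton]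
    grind

theorem isMaximalIn (h : Fr Q e c κ) (hn : Odd (Fintype.card ι) ∨ 10 ≤ Fintype.card ι) :
    Geo.IsMaximalIn (Om Q) ((Hh Q fun i => F ∙ e i) ⊓ Om Q) := by
  refine H97.isMaximalIn_of inf_le_right (fun h1 => ?_) fun X hX hX' ⟨g, hg, hg'⟩ =>
    by_contra fun h1 => hg' (hn.elim (fun h2 => ⟨h.mem_of_odd hX hX' h1 h2 hg, hX' hg⟩)
      fun h2 => h.le_of_ten hX hX' h1 h2 hg)
  obtain ⟨i, j, k, l, hij, hik, hil, hjk, hjl, hkl, -⟩ := Finset.card_eq_four.1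
    (Finset.exists_subset_card_eq (s := (Finset.univ : Finset ι)) (n := 4)
      (by have := h.seven; rw [Finset.card_univ]; omega)).choose_spec.2
  obtain ⟨α, β, h2⟩ := exists_binary_eq h.two one_ne_zero one_ne_zero (-1 : F)
  have hd : Q (e i + α • e j + β • e k) = 0 := by
    simp only [Q_add, Q_smul, polar_add_left, B_smul_left, h.Qe, h.Be, h.ce, hij, hik,
      hjk, if_false, map_smul, smul_eq_mul]
    linear_combination κ * h2
  have h3 : polar Q (e i + α • e j + β • e k) (e l) = 0 := by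
    simp [h.Be', h.ce, hil.symm, hjl.symm, hkl.symm]
  obtain ⟨σ, hσ⟩ := h.H_elim (h1 (eich_mem_Om h.nd h.good (e i + α • e j + β • e k) (e l))).1
  obtain ⟨t, -, ht⟩ := hσ l
  rw [eich_apply_of_orth_left hd h3 (B_symm h3), B_self, h.Qe] at ht
  have e1 := congrArg (c i) ht
  have e2 := congrArg (c l) ht
  simp [h.ce, hij, hik, hil, hil.symm, hjl.symm, hkl.symm] at e1 e2
  split_ifs at e1 with e3
  · rw [← e3, if_neg hil.symm] at e2
    exact one_ne_zero e2
  · exact mul_ne_zero h.two h.hκ e1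

end Fr

theorem Blk.exists_fr {D : ι → Submodule F V} {π : ι → V →ₗ[F] V} (h : Blk Q D π 1)
    (h2 : (2 : F) ≠ 0) (hF : (Fintype.card F).Prime) (hn : 7 ≤ Fintype.card ι) :
    ∃ e c κ, Fr Q e c κ ∧ D = fun i => F ∙ e i := by
  obtain ⟨a⟩ := Fintype.card_pos_iff.1 (by omega : 0 < Fintype.card ι)
  obtain ⟨x, hx, hq⟩ := h.exists_nonsing a
  choose e he he' using h.exists_Q_eq hx
  have hκ := mul_ne_zero h2 hq
  have h1 : ∀ i, D i = F ∙ e i := fun i => (Submodule.eq_of_le_of_finrank_le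
    ((Submodule.span_singleton_le_iff_mem _ _).2 (he i))
    (by rw [h.dim, finrank_span_singleton (ne_zero_of_Q_ne (he' i ▸ hq))])).symm
  refine ⟨e, fun i => (2 * Q x)⁻¹ • polarBilin Q (e i), Q x, ⟨h.nd, h2, hF, hq, fun y => ?_,
    fun i j => ?_, he', fun i y => by
      rw [LinearMap.smul_apply, polarBilin_apply_apply, smul_eq_mul, mul_inv_cancel_left₀ hκ], hn⟩, funext h1⟩
  · conv_rhs => rw [← h.sum y]
    refine Finset.sum_congr rfl fun i _ => ?_
    obtain ⟨t, ht⟩ := Submodule.mem_span_singleton.1 (h1 i ▸ h.mem i y)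
    rw [LinearMap.smul_apply, polarBilin_apply_apply, ← h.B_proj (he i), ← ht, B_smul_right, B_self,
      he', smul_eq_mul, mul_left_comm, inv_mul_cancel₀ hκ, mul_one]
  · rw [LinearMap.smul_apply, polarBilin_apply_apply, smul_eq_mul]
    split_ifs with hij
    · rw [hij, B_self, he', inv_mul_cancel₀ hκ]
    · rw [h.orth i j hij _ (he i) _ (he j), mul_zero]

theorem isMaximalIn_frame {D : ι → Submodule F V} {π : ι → V →ₗ[F] V} (h : Blk Q D π 1)
    (h2 : (2 : F) ≠ 0) (hF : (Fintype.card F).Prime) (h7 : 7 ≤ Fintype.card ι)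
    (hn : Odd (Fintype.card ι) ∨ 10 ≤ Fintype.card ι) : Geo.IsMaximalIn (Om Q) (Hh Q D ⊓ Om Q) := by
  obtain ⟨e, c, κ, h1, rfl⟩ := h.exists_fr h2 hF h7
  exact h1.isMaximalIn hn

end H97o
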