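import Mathlib
import Cfsg.Agent.Base
import Cfsg.Agent.Lib.ClassMax.OBase
import Cfsg.Agent.Lib.QF.OmegaGeom

/-!
The stabiliser in `Ω⁺` of a pair of complementary totally singular subspaces.
-/

set_option autoImplicit false
set_option linter.unusedSectionVars false
set_option linter.unusedVariables false

namespace H97o

open Module Cfsg H12 QuadraticMap

variable {F V : Type*} [Field F] [AddCommGroup V] [Module F V] {Q : QuadraticForm F V}
  [FiniteDimensional F V]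

/-- Two complementary totally singular subspaces. -/
structure Pair (Q : QuadraticForm F V) (U U' : Submodule F V) : Prop where
  nd : Nondeg Q
  good : Good Q
  ts : ∀ u ∈ U, Q u = 0
  ts' : ∀ u ∈ U', Q u = 0
  compl : IsCompl U U'

namespace Pair

variable {U U' : Submodule F V} {X : Subgroup (O Q)}

theorem symm (h : Pair Q U U') : Pair Q U' U := ⟨h.nd, h.good, h.ts', h.ts, h.compl.symm⟩

theorem decomp (h : Pair Q U U') (x : V) : ∃ a ∈ U, ∃ b ∈ U', a + b = x :=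
  Submodule.mem_sup.1 (h.compl.sup_eq_top ▸ Submodule.mem_top)

theorem exists_dual (h : Pair Q U U') {Y : Submodule F V} (hY : Y ≤ U) {u : V} (hu : u ∈ U)
    (huY : u ∉ Y) : ∃ f ∈ U', (∀ y ∈ Y, polar Q y f = 0) ∧ polar Q u f = 1 := by
  obtain ⟨y, h1, h2⟩ := h.nd.exists_orth_B_ne Y huY
  obtain ⟨a, ha, b, hb, rfl⟩ := h.decomp y
  have e : ∀ w ∈ U, polar Q w (a + b) = polar Q w b := fun w hw => by
    rw [polar_add_right, B_of_ts h.ts hw ha, zero_add]
  rw [polar_comm, e u hu] at h2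
  refine ⟨(polar Q u b)⁻¹ • b, U'.smul_mem _ hb, fun y hy => ?_, ?_⟩
  · rw [B_smul_right, ← e y (hY hy), h1 y hy, mul_zero]
  · rw [B_smul_right, inv_mul_cancel₀ h2]

theorem eich_apply_left (h : Pair Q U U') {e f x : V} (he : e ∈ U) (hf : f ∈ U')
    (hef : polar Q e f = 0) (hx : x ∈ U) : (eich Q e f).1 x = x + polar Q x f • e :=
  eich_apply_of_orth_left (h.ts e he) hef (B_of_ts h.ts hx he)

theorem eich_mem (h : Pair Q U U') (hH : St Q U ⊓ St Q U' ⊓ Om Q ≤ X) {e f : V} (he : e ∈ U)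
    (hf : f ∈ U') (hef : polar Q e f = 0) : eich Q e f ∈ X := by
  refine hH ⟨⟨mem_St.2 fun x hx => ?_, mem_St.2 fun x hx => ?_⟩, eich_mem_Om h.nd h.good _ _⟩
  · rw [h.eich_apply_left he hf hef hx]
    exact U.add_mem hx (U.smul_mem _ he)
  · rw [eich_apply (h.ts e he) hef, B_of_ts h.ts' hx hf, h.ts' f hf]
    simpa using U'.sub_mem hx (U'.smul_mem _ hf)

theorem mem_TF (h : Pair Q U U') (hH : St Q U ⊓ St Q U' ⊓ Om Q ≤ X) {e f : V} (he : e ∈ U)
    (hf : f ∈ U') (hef : polar Q e f = 0) : f ∈ TF X e :=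
  ⟨hef, fun c => h.eich_mem hH he (U'.smul_mem c hf) (by rw [B_smul_right, hef, mul_zero])⟩

theorem full (h : Pair Q U U') (hH : St Q U ⊓ St Q U' ⊓ Om Q ≤ X) {e a b : V} (he : e ∈ U)
    (ha : a ∈ U) (hb : b ∈ U') (hae : a ∉ F ∙ e) (hT : a + b ∈ TF X e) (w : V)
    (hw : polar Q e w = 0) : w ∈ TF X e := by
  have split : ∀ a ∈ U, ∀ b, polar Q e (a + b) = 0 → polar Q e b = 0 := fun a ha b h1 => by
    rwa [polar_add_right, B_of_ts h.ts he ha, zero_add] at h1
  have haT : a ∈ TF X e := by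
    have := (TF X e).sub_mem hT (h.mem_TF hH he hb (split a ha b hT.1))
    rwa [add_sub_cancel_right] at this
  obtain ⟨u, hu, v, hv, rfl⟩ := h.decomp w
  refine (TF X e).add_mem ?_ (h.mem_TF hH he hv (split u hu v hw))
  by_cases h1 : a ∈ Submodule.span F {e, u}
  · obtain ⟨s, t, hst⟩ := Submodule.mem_span_pair.1 h1
    have ht : t ≠ 0 := by
      rintro rfl
      exact hae (Submodule.mem_span_singleton.2 ⟨s, by simpa using hst⟩)
    have := (TF X e).sub_mem haT ((TF X e).smul_mem s (self_mem_TF (h.ts e he)))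
    rw [← hst, add_sub_cancel_left] at this
    exact ((TF X e).smul_mem_iff ht).1 this
  · obtain ⟨f, hf, h2, h3⟩ := h.exists_dual (Submodule.span_le.2 (by
      rintro x (rfl | rfl); exacts [he, hu])) ha h1
    have h4 := h2 e (Submodule.subset_span (by simp))
    have h5 := h2 u (Submodule.subset_span (by simp))
    have := TF_fix (h.eich_mem hH hu hf h5) (d := e)
      (by rw [h.eich_apply_left hu hf h5 he, h4, zero_smul, add_zero]) haT
    rw [h.eich_apply_left hu hf h5 ha, h3, one_smul] at this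
    simpa using (TF X e).sub_mem this haT

theorem full_all (h : Pair Q U U') (hH : St Q U ⊓ St Q U' ⊓ Om Q ≤ X) {e e' : V} (he : e ∈ U)
    (he0 : e ≠ 0) (hT : ∀ w, polar Q e w = 0 → w ∈ TF X e) (he' : e' ∈ U) (he'0 : e' ≠ 0)
    (w : V) (hw : polar Q e' w = 0) : w ∈ TF X e' := by
  by_cases h1 : e ∈ F ∙ (e' - e)
  · obtain ⟨c, hc⟩ := Submodule.mem_span_singleton.1 h1
    have hc0 : c ≠ 0 := by rintro rfl; exact he0 (by simpa using hc.symm)
    have h2 : e' = (1 + c⁻¹) • e := by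
      rw [add_smul, one_smul]
      nth_rewrite 2 [← hc]
      rw [smul_smul, inv_mul_cancel₀ hc0, one_smul, add_sub_cancel]
    have h3 : (1 + c⁻¹) ≠ 0 := fun h3 => he'0 (by rw [h2, h3, zero_smul])
    rw [h2, B_smul_left] at hw
    rw [h2]
    exact TF_smul (hT w ((mul_eq_zero.1 hw).resolve_left h3)) _
  · have hu := U.sub_mem he' he
    obtain ⟨f, hf, h2, h3⟩ := h.exists_dual ((Submodule.span_singleton_le_iff_mem _ _).2 hu) he h1
    have h4 := h2 _ (Submodule.mem_span_singleton_self _)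
    have h5 : (eich Q (e' - e) f).1 e = e' := by
      rw [h.eich_apply_left hu hf h4 he, h3, one_smul, add_sub_cancel]
    have := TF_apply (h.eich_mem hH hu hf h4) (hT (((eich Q (e' - e) f)⁻¹).1 w)
      (by rw [← O.B_apply_left, h5, hw]))
    rwa [O.apply_inv_apply, h5] at this

theorem gain (h : Pair Q U U') (hH : St Q U ⊓ St Q U' ⊓ Om Q ≤ X) (hm : 5 ≤ finrank F U)
    {a a' b b' : V} (ha : a ∈ U) (ha' : a' ∈ U') (hb : b ∈ U) (hb' : b' ∈ U')
    (h1 : Q (a + a') = 0) (h2 : Q (b + b') = 0) (h3 : polar Q (a + a') (b + b') = 0)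
    (hX : eich Q (a + a') (b + b') ∈ X) (ha0 : a ≠ 0) (hab : b ∉ F ∙ a) :
    ∃ e ∈ U, e ≠ 0 ∧ ∀ w, polar Q e w = 0 → w ∈ TF X e := by
  have d1 := finrank_inf_orth (Q := Q) U a'
  have d2 := finrank_inf_orth (Q := Q) (U ⊓ orth Q a') b'
  have d3 := finrank_span_pair_le (F := F) a b
  obtain ⟨e, ⟨⟨he, hea⟩, heb⟩, hne⟩ := exists_notMem_of_lt
    (W := U ⊓ orth Q a' ⊓ orth Q b') (U := Submodule.span F {a, b}) (by omega)
  replace hea := B_symm (mem_orth.1 hea)
  replace heb := B_symm (mem_orth.1 heb)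
  have he0 : e ≠ 0 := by rintro rfl; exact hne (Submodule.zero_mem _)
  have h4 : b ∉ Submodule.span F {e, a} := fun h4 => by
    obtain ⟨s, t, hst⟩ := Submodule.mem_span_pair.1 h4
    by_cases hs : s = 0
    · exact hab (Submodule.mem_span_singleton.2 ⟨t, by simpa [hs] using hst⟩)
    · exact hne (Submodule.mem_span_pair.2 ⟨-(s⁻¹ * t), s⁻¹, by
        rw [← hst, smul_add, smul_smul, smul_smul, inv_mul_cancel₀ hs]; module⟩)
  have h5 : a ∉ F ∙ e := fun h5 => by
    obtain ⟨s, hs⟩ := Submodule.mem_span_singleton.1 h5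
    have hs0 : s ≠ 0 := by rintro rfl; exact ha0 (by simpa using hs.symm)
    exact hne (Submodule.mem_span_pair.2 ⟨s⁻¹, 0, by
      rw [← hs, smul_smul, inv_mul_cancel₀ hs0]; module⟩)
  obtain ⟨f, hf, h6, h7⟩ := h.exists_dual (Submodule.span_le.2 (by
      rintro x (rfl | rfl); exacts [he, ha])) hb h4
  have h8 := h6 e (Submodule.subset_span (by simp))
  have h9 := h6 a (Submodule.subset_span (by simp))
  have := TF_fix hX (d := e) (eich_apply_of_orth
    (by rw [polar_add_right, B_of_ts h.ts he ha, hea, add_zero])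
    (by rw [polar_add_right, B_of_ts h.ts he hb, heb, add_zero])) (h.mem_TF hH he hf h8)
  rw [eich_apply_of_orth_left h1 h3
    (by rw [polar_add_right, B_of_ts h.ts' hf ha', B_symm h9, add_zero]), polar_add_right,
    B_of_ts h.ts' hf hb', polar_comm, h7, add_zero, one_smul, add_comm f, add_assoc] at this
  exact ⟨e, he, he0, h.full hH he ha (U'.add_mem ha' hf) h5 this⟩

theorem maps_or (h : Pair Q U U') (hH : St Q U ⊓ St Q U' ⊓ Om Q ≤ X) (hm : 5 ≤ finrank F U)
    (hm' : 5 ≤ finrank F U') {g : O Q} (hg : g ∈ X) :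
    ((∃ e ∈ U, e ≠ 0 ∧ ∀ w, polar Q e w = 0 → w ∈ TF X e) ∨
      ∃ e ∈ U', e ≠ 0 ∧ ∀ w, polar Q e w = 0 → w ∈ TF X e) ∨
    (∀ x ∈ U, g.1 x ∈ U) ∨ ∀ x ∈ U, g.1 x ∈ U' := by
  refine or_iff_not_imp_left.2 fun hn => ?_
  have key : ∀ e ∈ U, g.1 e ∈ U ∨ g.1 e ∈ U' := by
    intro e he
    obtain ⟨a, ha, a', ha', haa⟩ := h.decomp (g.1 e)
    by_cases ha0 : a = 0
    · right; rw [← haa, ha0, zero_add]; exact ha'
    by_cases ha'0 : a' = 0
    · left; rw [← haa, ha'0, add_zero]; exact ha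
    exfalso
    have h1 : (U' ⊓ orth Q e).map (g.1 : V →ₗ[F] V) ≤ Submodule.span F {a, a'} := by
      rintro _ ⟨f, ⟨hf, hef⟩, rfl⟩
      replace hef := mem_orth.1 hef
      obtain ⟨b, hb, b', hb', hbb⟩ := h.decomp (g.1 f)
      have q1 : Q (a + a') = 0 := by rw [haa, O.map_Q, h.ts e he]
      have q2 : Q (b + b') = 0 := by rw [hbb, O.map_Q, h.ts' f hf]
      have q3 : polar Q (a + a') (b + b') = 0 := by rw [haa, hbb, O.map_B, hef]
      have q4 : eich Q (a + a') (b + b') ∈ X := by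
        rw [haa, hbb, ← eich_conj]
        exact X.mul_mem (X.mul_mem hg (h.eich_mem hH he hf hef)) (X.inv_mem hg)
      by_cases hab : b ∈ F ∙ a
      · by_cases hab' : b' ∈ F ∙ a'
        · obtain ⟨s, rfl⟩ := Submodule.mem_span_singleton.1 hab
          obtain ⟨t, rfl⟩ := Submodule.mem_span_singleton.1 hab'
          exact Submodule.mem_span_pair.2 ⟨s, t, hbb⟩
        · rw [add_comm a] at q1 q3 q4
          rw [add_comm b] at q2 q3 q4
          exact absurd (Or.inr (h.symm.gain (by rwa [inf_comm (St Q U')]) hm' ha' ha hb' hb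
            q1 q2 q3 q4 ha'0 hab')) hn
      · exact absurd (Or.inl (h.gain hH hm ha ha' hb hb' q1 q2 q3 q4 ha0 hab)) hn
    have d1 := finrank_inf_orth (Q := Q) U' e
    have d2 := Submodule.finrank_mono h1
    have d3 := finrank_span_pair_le (F := F) a a'
    rw [LinearEquiv.finrank_map_eq] at d2
    omega
  by_contra h1
  obtain ⟨x, hx, h2, h3⟩ := H97.exists_notMem_two (W := U) (Y := U.comap (g.1 : V →ₗ[F] V))
    (Z := U'.comap (g.1 : V →ₗ[F] V)) (fun h => h1 (Or.inl h)) fun h => h1 (Or.inr h)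
  exact (key x hx).elim h2 h3

theorem exists_swap (h : Pair Q U U') (hm : finrank F U = finrank F U') :
    ∃ s : O Q, (∀ x ∈ U, s.1 x ∈ U') ∧ ∀ x ∈ U', s.1 x ∈ U := by
  classical
  let b := finBasis F U
  let e : Fin (finrank F U) → V := fun i => b i
  have he : LinearIndependent F e := b.linearIndependent.map' U.subtype U.ker_subtype
  have heU : ∀ i, e i ∈ U := fun i => (b i).2
  obtain ⟨g, hg⟩ := (H28.PQ.ofQuad Q).exists_dual_family (nondeg_iff.1 h.nd).1 e he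
  choose a ha f hf haf using fun j => h.decomp (g j)
  have hef : ∀ i j, polar Q (e i) (f j) = if i = j then 1 else 0 := fun i j => by
    rw [← hg i j, ← haf j, H97.ofQuad_B, polar_add_right, B_of_ts h.ts (heU i) (ha j), zero_add]
  have h1 : (H28.PQ.ofQuad Q).IsHyp e f :=
    ⟨fun i j => B_of_ts h.ts (heU i) (heU j), fun i j => B_of_ts h.ts' (hf i) (hf j), hef,
      fun i => H97.ofQuad_q_mem.2 (h.ts _ (heU i)), fun i => H97.ofQuad_q_mem.2 (h.ts' _ (hf i))⟩
  have h2 : (H28.PQ.ofQuad Q).IsHyp f e :=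
    ⟨h1.ff, h1.ee, fun i j => by rw [H97.ofQuad_B, polar_comm, hef, if_congr eq_comm rfl rfl],
      h1.qf, h1.qe⟩
  obtain ⟨s, hs⟩ := exists_O_family h.nd _ _ h1.linearIndependent h2.linearIndependent (by
    rintro (i | i) (j | j) -
    · exact (h1.ff i j).trans (h1.ee i j).symm
    · exact (h2.ef i j).trans (h1.ef i j).symm
    · exact (h1.ef i j).trans (h2.ef i j).symm
    · exact (h1.ee i j).trans (h1.ff i j).symm) (by
    rintro (i | i)
    · exact (h.ts' _ (hf i)).trans (h.ts _ (heU i)).symm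
    · exact (h.ts _ (heU i)).trans (h.ts' _ (hf i)).symm)
  have hs1 : ∀ i, s.1 (e i) = f i := fun i => hs (Sum.inl i)
  have hs2 : ∀ i, s.1 (f i) = e i := fun i => hs (Sum.inr i)
  have h3 : ∀ x : U, s.1 x ∈ U' ∧ s.1 (s.1 x) = x := fun x => by
    have hx : (x : V) = ∑ i, b.repr x i • e i := by
      conv_lhs => rw [← b.sum_repr x]
      rw [Submodule.coe_sum]
      rfl
    rw [hx]
    simp only [map_sum, map_smul, hs1, hs2, and_true]
    exact U'.sum_mem fun i _ => U'.smul_mem _ (hf i)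
  refine ⟨s, fun x hx => (h3 ⟨x, hx⟩).1, fun y hy => ?_⟩
  have h4 := H97.map_eq_of_maps (W := U) (W' := U') (g := s.1) (fun x hx => (h3 ⟨x, hx⟩).1) hm.ge
  rw [← h4] at hy
  obtain ⟨x, hx, rfl⟩ := hy
  exact (h3 ⟨x, hx⟩).2.symm ▸ hx

theorem dk_swap (h : Pair Q U U') {m : ℕ} (hm : finrank F U = m) (hm' : finrank F U' = m)
    {s : O Q} (hs : ∀ x ∈ U, s.1 x ∈ U') : dk h.nd h.good s = 1 ↔ Even m := by
  have hV : finrank F V = 2 * m := by
    rw [← Submodule.finrank_add_eq_of_isCompl h.compl]; omega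
  rw [H66.dk_eq_one_iff_even h.nd h.good hV ⟨hm, h.ts⟩,
    show H66.mapO s U = U' from H97.map_eq_of_maps hs (by omega), h.compl.inf_eq_bot]
  simp

theorem exists_hyp (h : Pair Q U U') (hm : 1 ≤ finrank F U) : ∃ e ∈ U, ∃ f ∈ U', IsHyp Q e f := by
  obtain ⟨e, he, he0⟩ := H97.exists_ne_zero_mem hm
  obtain ⟨f, hf, -, h1⟩ := h.exists_dual (Y := ⊥) bot_le he (by simpa using he0)
  exact ⟨e, he, f, hf, h.ts e he, h.ts' f hf, h1⟩

theorem exists_swap_Om [Fintype F] (h : Pair Q U U') {m : ℕ} (hm : finrank F U = m)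
    (hm' : finrank F U' = m) (h1 : 1 ≤ m) (he : Even m) :
    ∃ s ∈ Om Q, (∀ x ∈ U, s.1 x ∈ U') ∧ ∀ x ∈ U', s.1 x ∈ U := by
  classical
  obtain ⟨s, h2, h3⟩ := h.exists_swap (by omega)
  obtain ⟨e, heU, f, hf, hef⟩ := h.exists_hyp (by omega)
  obtain ⟨k, ⟨hk1, hk2⟩, hk⟩ := H66.exists_mul_mem_Om_of_dk h.nd h.good (St Q U ⊓ St Q U')
    (fun h4 => by
      obtain ⟨c, hc, h5⟩ := H66.exists_tor_spin h.nd h.good hef h4
      refine ⟨_, ⟨mem_St.2 fun x hx => ?_, mem_St.2 fun x hx => ?_⟩, h5⟩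
      · rw [H66.tor_apply hef hc, B_of_ts h.ts heU hx]
        simpa using U.add_mem hx (U.smul_mem _ heU)
      · rw [H66.tor_apply hef hc, B_of_ts h.ts' hf hx]
        simpa using U'.add_mem hx (U'.smul_mem _ hf)) ((h.dk_swap hm hm' h2).2 he)
  exact ⟨_, hk, fun x hx => h2 _ (mem_St.1 hk1 x hx), fun x hx => h3 _ (mem_St.1 hk2 x hx)⟩

end Pair

theorem not_Om_le_St [Finite F] (hQ : Nondeg Q) (hG : Good Q) (hn : 5 ≤ finrank F V)
    {W : Submodule F V} (h0 : W ≠ ⊥) (h1 : W ≠ ⊤) : ¬ Om Q ≤ St Q W := fun h =>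
  (H97.isoK_quad Q).not_EG_le_stab (nondeg_iff.1 hQ).1 hn h0 h1
    (H97.EG_le fun d w c hd hw hc => by
      have hc' : c = Q w := sub_eq_zero.1 (AddSubgroup.mem_bot.1 hc)
      have hd' := H97.ofQuad_q_mem.1 hd
      refine ⟨(eich Q d w).1, h (eich_mem_Om hQ hG d w), fun x => ?_⟩
      rw [eich_apply hd' hw, H97.eu_apply, H97.ofQuad_B, H97.ofQuad_B, hc',
        polar_comm _ w x, polar_comm _ d x]
      show _ = x + (polar Q x w - 1 * Q w * polar Q x d) • d - (1 * polar Q x d) • w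
      module)

theorem isMaximalIn_pair [Fintype F] {D : Fin 2 → Submodule F V} (h : Pair Q (D 0) (D 1)) {m : ℕ}
    (hm : ∀ i, finrank F (D i) = m) (h5 : 5 ≤ m) (he : Even m) :
    Geo.IsMaximalIn (Om Q) (Hh Q D ⊓ Om Q) := by
  have hV : finrank F V = 2 * m := by
    rw [← Submodule.finrank_add_eq_of_isCompl h.compl, hm, hm]; omega
  have hinj : Function.Injective D := by
    have : D 0 ≠ D 1 := fun e => by
      have h1 := h.compl.inf_eq_bot
      rw [← e, inf_idem] at h1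
      have := hm 0
      rw [h1, finrank_bot] at this
      omega
    intro i j hij
    fin_cases i <;> fin_cases j <;> simp_all
  have hd : ∀ i j, finrank F (D i) = finrank F (D j) := fun i j => by rw [hm, hm]
  obtain ⟨s, hs, hs1, hs2⟩ := h.exists_swap_Om (hm 0) (hm 1) (by omega) he
  refine H97.isMaximalIn_of inf_le_right (fun h1 => ?_) fun X hX hX' ⟨g, hg, hg'⟩ => ?_
  · obtain ⟨e, he, f, hf, hef⟩ := h.exists_hyp (by rw [hm]; omega)
    obtain ⟨u, ⟨hu, huf⟩, hue⟩ := exists_notMem_of_lt (W := D 0 ⊓ orth Q f) (U := ⊥) (by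
      have := finrank_inf_orth (Q := Q) (D 0) f
      rw [finrank_bot]; rw [hm] at this; omega)
    obtain ⟨π, hπ⟩ := Hh_elim (h1 (eich_mem_Om h.nd h.good e u)).1
    have h2 := (hπ 1 f).1 hf
    have hdis := Submodule.disjoint_def.1 h.compl.disjoint
    rw [eich_apply hef.he (B_of_ts h.ts he hu), mem_orth.1 huf, hef.hfe, h.ts u hu] at h2
    simp only [zero_smul, add_zero, one_smul, zero_mul, sub_zero] at h2
    generalize π 1 = j at h2
    fin_cases j
    · exact hef.f_ne (hdis f (by simpa using (D 0).add_mem h2 hu) hf)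
    · exact hue (hdis u hu (by simpa using (D 1).sub_mem hf h2))
  have hH : St Q (D 0) ⊓ St Q (D 1) ⊓ Om Q ≤ X := fun k hk => hX ⟨mem_Hh_of_stab
    (Fin.forall_fin_two.2 ⟨mem_St.1 hk.1.1, mem_St.1 hk.1.2⟩), hk.2⟩
  have hsX : s ∈ X := hX ⟨mem_Hh_of_maps hinj hd
    (Fin.forall_fin_two.2 ⟨⟨1, hs1⟩, ⟨0, hs2⟩⟩), hs⟩
  have fin : ∀ {U U' : Submodule F V}, Pair Q U U' → St Q U ⊓ St Q U' ⊓ Om Q ≤ X →
      (∀ x ∈ U', s.1 x ∈ U) → (∃ e ∈ U', e ≠ 0 ∧ ∀ w, polar Q e w = 0 → w ∈ TF X e) →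
      Om Q ≤ X := by
    rintro U U' h hH h1 ⟨e, he, he0, hT⟩
    obtain ⟨f, hf, -, h2⟩ := h.exists_dual (Y := ⊥) bot_le (h1 e he)
      (by simpa using he0)
    refine Om_le_of_TF h.nd h.good (by omega) (h.ts _ (h1 e he)) (h.ts' f hf)
      (by rw [h2]; exact one_ne_zero) (fun w hw => ?_)
      (h.symm.full_all (by rwa [inf_comm (St Q U')]) he he0 hT hf
        (ne_zero_of_B_ne_right (by rw [h2]; exact one_ne_zero)))
    have := TF_apply hsX (hT ((s⁻¹).1 w) (by rw [← O.B_apply_left, hw]))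
    rwa [O.apply_inv_apply] at this
  have hH' : St Q (D 1) ⊓ St Q (D 0) ⊓ Om Q ≤ X := by rwa [inf_comm (St Q (D 1))]
  rcases h.maps_or hH (by rw [hm]; exact h5) (by rw [hm]; exact h5) hg with (h1 | h1) | h1
  · exact fin h.symm hH' hs1 h1
  · exact fin h hH hs2 h1
  rcases h.symm.maps_or hH' (by rw [hm]; exact h5) (by rw [hm]; exact h5) hg with (h2 | h2) | h2
  · exact fin h hH hs2 h2
  · exact fin h.symm hH' hs1 h2
  exact absurd ⟨mem_Hh_of_maps hinj hd (Fin.forall_fin_two.2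
    ⟨h1.elim (fun h => ⟨0, h⟩) fun h => ⟨1, h⟩, h2.elim (fun h => ⟨1, h⟩) fun h => ⟨0, h⟩⟩),
    hX' hg⟩ hg'

theorem exists_between_pair [Fintype F] {D : Fin 2 → Submodule F V} (h : Pair Q (D 0) (D 1))
    {m : ℕ} (hm : ∀ i, finrank F (D i) = m) (h3 : 3 ≤ m) (ho : Odd m) :
    ∃ M, Hh Q D ⊓ Om Q < M ∧ M < Om Q := by
  have hV : finrank F V = 2 * m := by
    rw [← Submodule.finrank_add_eq_of_isCompl h.compl, hm, hm]; omega
  have key : ∀ g ∈ Hh Q D ⊓ Om Q, g ∈ St Q (D 0) ∧ g ∈ St Q (D 1) := by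
    rintro g ⟨hg, hg'⟩
    rcases H97.mem_dstab_two.1 hg with h1 | h1
    · exact h1
    · exfalso
      have := (h.dk_swap (hm 0) (hm 1) (s := g) fun x hx => h1.1 ▸ ⟨x, hx, rfl⟩).1
        (Abelianization.commutator_subset_ker (dk h.nd h.good) hg')
      exact Nat.not_even_iff_odd.2 ho this
  refine H97.exists_between_of (St Q (D 0) ⊓ Om Q) (fun g hg => ⟨(key g hg).1, hg.2⟩)
    inf_le_right ?_ ?_
  · obtain ⟨e, he, f, hf, hef⟩ := h.exists_hyp (by rw [hm]; omega)
    obtain ⟨u, ⟨hu, huf⟩, hue⟩ := exists_notMem_of_lt (W := D 0 ⊓ orth Q f) (U := ⊥) (by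
      have := finrank_inf_orth (Q := Q) (D 0) f
      rw [finrank_bot]; rw [hm] at this; omega)
    refine ⟨eich Q e u, ⟨mem_St.2 fun x hx => ?_, eich_mem_Om h.nd h.good e u⟩, fun h1 => ?_⟩
    · rw [eich_apply_of_orth (B_of_ts h.ts hx he) (B_of_ts h.ts hx hu)]; exact hx
    · have h2 := mem_St.1 (key _ h1).2 f hf
      rw [eich_apply hef.he (B_of_ts h.ts he hu), mem_orth.1 huf, hef.hfe, h.ts u hu] at h2
      simp only [zero_smul, add_zero, one_smul, zero_mul, sub_zero] at h2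
      exact hue (Submodule.disjoint_def.1 h.compl.disjoint u hu
        (by simpa using (D 1).sub_mem hf h2))
  · by_contra h1
    push Not at h1
    refine not_Om_le_St h.nd h.good (by omega) (W := D 0) (fun h2 => ?_) (fun h2 => ?_)
      fun g hg => (h1 g hg).1
    · have := hm 0
      rw [h2, finrank_bot] at this
      omega
    · have := hm 0
      rw [h2, finrank_top] at this
      omega

theorem pair_of_geo {ι : Type} [Fintype ι] [DecidableEq ι] {Q : QuadraticForm F (ι → F)}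
    (hQ : Nondeg Q) (hn : Fintype.card ι ≠ 4) {k : ℕ} {D : Fin 2 → Submodule F (ι → F)}
    (hD : Geo.IsMDecomposition k D) (hts : ∀ i, Geo.IsTotallySingularQuad Q (D i)) :
    Pair Q (D 0) (D 1) :=
  ⟨hQ, good_of_finrank_ne hQ (by simpa using hn), hts 0, hts 1,
    hD.indep.pairwiseDisjoint (by decide : (0 : Fin 2) ≠ 1),
    codisjoint_iff.2 (by rw [← H97.iSup_two, hD.iSup_eq_top])⟩

end H97o
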