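import Mathlib
import Cfsg.Agent.Base
import Cfsg.Agent.Lib.ClassMax.OFrameMax

/-!
Overgroups of the stabiliser of an orthogonal decomposition into planes.
-/

set_option autoImplicit false
set_option linter.unusedSectionVars false
set_option linter.unusedVariables false

namespace H97o

open Module Cfsg H12 QuadraticMap

variable {F V : Type*} [Field F] [Fintype F] [AddCommGroup V] [Module F V] {Q : QuadraticForm F V}
  [FiniteDimensional F V] {ι : Type*} [Fintype ι] [DecidableEq ι]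
  {D : ι → Submodule F V} {π : ι → V →ₗ[F] V} {k : ℕ} {X : Subgroup (O Q)}

theorem exists_Q_notMem {a : V} (ha : Q a ≠ 0) (b : V) (L : Finset F)
    (h : L.card * 2 < Fintype.card F) : ∃ x : F, Q (x • a + b) ∉ L := by
  classical
  obtain ⟨x, -, hx⟩ := Finset.exists_mem_notMem_of_card_lt_card (t := Finset.univ)
    ((Finset.card_biUnion_le_card_mul L (fun v => Finset.univ.filter fun x : F => Q (x • a + b) = v) 2
      fun v _ => by
        by_contra h1
        obtain ⟨x, y, z, h2, h3, h4, h5, h6, h7⟩ := Finset.two_lt_card_iff.1 (not_le.1 h1)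
        simp only [Finset.mem_filter, Finset.mem_univ, true_and, Q_add, Q_smul, B_smul_left] at h2 h3 h4
        exact mul_ne_zero (mul_ne_zero (mul_ne_zero ha (sub_ne_zero.2 h5)) (sub_ne_zero.2 h6))
          (sub_ne_zero.2 h7) (by
            linear_combination (y - z) * h2 - (x - z) * h3 + (x - y) * h4)).trans_lt h)
  exact ⟨x, by simpa using hx⟩

theorem NdOn.disc_ne {W : Submodule F V} (h : NdOn Q W) (hW : finrank F W = 2) {a b : V}
    (ha : a ∈ W) (hb : b ∈ W) (hq : Q a ≠ 0) (hab : b ∉ F ∙ a) :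
    polar Q a b ^ 2 ≠ 4 * (Q a * Q b) := fun hD => by
  have h1 : LinearIndependent F ![a, b] := (LinearIndependent.pair_iff' (ne_zero_of_Q_ne hq)).2
    fun t ht => hab (Submodule.mem_span_singleton.2 ⟨t, ht⟩)
  have h2 := finrank_span_eq_card h1
  rw [Matrix.range_cons_cons_empty, Fintype.card_fin] at h2
  have h3 : ∀ x ∈ W, polar Q x a = 0 → polar Q x b = 0 → x = 0 := fun x hx h3 h4 =>
    h x hx fun y hy => by
      rw [← Submodule.eq_of_le_of_finrank_le (S₁ := Submodule.span F {a, b})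
        (Submodule.span_le.2 (by rintro _ (rfl | rfl) <;> assumption)) (hW.trans h2.symm).le] at hy
      obtain ⟨s, t, rfl⟩ := Submodule.mem_span_pair.1 hy
      simp [h3, h4]
  by_cases h4 : (2 : F) = 0
  · exact ne_zero_of_Q_ne hq (h3 a ha (by rw [B_self, h4, zero_mul]) (pow_eq_zero_iff two_ne_zero |>.1
      (by linear_combination hD + 2 * Q a * Q b * h4)))
  · have := h3 ((2 * Q a) • b - polar Q a b • a) (W.sub_mem (W.smul_mem _ hb) (W.smul_mem _ ha))
      (by rw [polar_sub_left, B_smul_left, B_smul_left, B_self, polar_comm]; ring)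
      (by rw [polar_sub_left, B_smul_left, B_smul_left, B_self]; linear_combination -hD)
    refine hab ((Submodule.smul_mem_iff _ (mul_ne_zero h4 hq)).1 ?_)
    rw [sub_eq_zero.1 this]
    exact Submodule.smul_mem _ _ (Submodule.mem_span_singleton_self a)

theorem commute_of_fix (hQ : Nondeg Q) {W : Submodule F V} {g c : O Q} (hg : ∀ w ∈ W, g.1 w = w)
    (hc : c ∈ movIn Q W) : Commute g c := O.ext fun x => by
  have h1 := movIn_fix hQ hc (x := g.1 x - x) fun w hw => by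
    rw [polar_sub_left]; nth_rewrite 1 [← hg w hw]; rw [O.map_B, sub_self]
  have h2 := hg _ (hc x)
  rw [map_sub] at h1 h2
  rw [O.mul_apply, O.mul_apply]
  linear_combination (norm := module) -h1 - h2

theorem five_le_card (h2 : (2 : F) ≠ 0) (h3 : Fintype.card F ≠ 3) : 5 ≤ Fintype.card F := by
  have := card_odd_of_two_ne_zero h2
  have : 1 < Fintype.card F := Fintype.one_lt_card
  omega

open Classical in
/-- The blocks in which a vector has a non-zero component. -/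
noncomputable def bsup (π : ι → V →ₗ[F] V) (x : V) : Finset ι := Finset.univ.filter fun i => π i x ≠ 0

theorem mem_bsup {x : V} {i : ι} : i ∈ bsup π x ↔ π i x ≠ 0 := by simp [bsup]

namespace Blk

theorem ext (h : Blk Q D π k) {g g' : O Q} (h1 : ∀ i, ∀ x ∈ D i, g.1 x = g'.1 x) : g = g' :=
  O.ext fun x => by
    rw [← h.sum x, map_sum, map_sum]
    exact Finset.sum_congr rfl fun i _ => h1 i _ (h.mem i x)

theorem ext_proj (h : Blk Q D π k) {x y : V} (h1 : ∀ i, π i x = π i y) : x = y := by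
  rw [← h.sum x, ← h.sum y]
  exact Finset.sum_congr rfl fun i _ => h1 i

theorem exists_map (h : Blk Q D π k) (i j : ι) : ∃ s ∈ Hh Q D, (∀ x ∈ D i, s.1 x ∈ D j) ∧
    ∀ x, π i x = 0 → π j x = 0 → s.1 x = x := by
  by_cases hij : i = j
  · exact ⟨1, Subgroup.one_mem _, fun x hx => hij ▸ hx, fun _ _ _ => rfl⟩
  · obtain ⟨s, h1, h2, -, h3, -⟩ := h.exists_swap hij
    exact ⟨s, h1, h2, h3⟩

theorem refl_other (h : Blk Q D π k) {i j : ι} (hij : i ≠ j) {x b : V} (hx : x ∈ D i) (hb : b ∈ D j) :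
    (refl Q b).1 x = x := refl_apply_of_orth (h.orth i j hij x hx b hb)

theorem proj_ite (h : Blk Q D π k) (i : ι) {j : ι} {x : V} (hx : x ∈ D j) :
    π i x = if i = j then x else 0 := by
  split_ifs with h1
  exacts [h.proj_self (h1 ▸ hx), h.proj_other h1 hx]

theorem disc_ne (h : Blk Q D π 2) {i : ι} {a b : V} (ha : a ∈ D i) (hb : b ∈ D i) (hq : Q a ≠ 0)
    (hab : b ∉ F ∙ a) : polar Q a b ^ 2 ≠ 4 * (Q a * Q b) := (h.ndOn i).disc_ne (h.dim i) ha hb hq hab

theorem exists_orth (h : Blk Q D π 2) (h2 : (2 : F) ≠ 0) {i : ι} {a : V} (ha : a ∈ D i)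
    (hq : Q a ≠ 0) : ∃ y ∈ D i, Q y ≠ 0 ∧ polar Q a y = 0 := by
  have d1 := finrank_inf_orth (Q := Q) (D i) a
  rw [h.dim] at d1
  obtain ⟨y, ⟨h3, h4⟩, h5⟩ := ((h.ndOn i).inf_orth h2 ha hq).exists_Q_ne' (by omega)
  exact ⟨y, h3, h5, mem_orth.1 h4⟩

theorem exists_kappa (h : Blk Q D π 2) (i : ι) {κ : F} (hκ : κ ≠ 0) : ∃ κ' : F, κ' ≠ 0 ∧
    ∀ m, ∀ a ∈ D m, Q a = κ → ∃ y ∈ D m, Q y = κ' ∧ polar Q y a = 0 := by
  by_cases h2 : (2 : F) = 0
  · exact ⟨κ, hκ, fun m a ha hq => ⟨a, ha, hq, by rw [B_self, h2, zero_mul]⟩⟩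
  obtain ⟨x, hx, rfl⟩ := h.universal le_rfl i κ
  obtain ⟨y, hy, h3, h4⟩ := h.exists_orth h2 hx hκ
  refine ⟨Q y, h3, fun m a ha hq => ?_⟩
  obtain ⟨s, -, h5, -⟩ := h.exists_map i m
  have key : ∀ a ∈ D m, Q a = Q x → Q (s.1 x - a) ≠ 0 → ∃ z ∈ D m, Q z = Q y ∧ polar Q z a = 0 :=
    fun a ha hq h6 => ⟨(refl Q (s.1 x - a)).1 (s.1 y),
      movIn_apply (refl_mem_movIn ((D m).sub_mem (h5 x hx) ha)) (h5 y hy), by rw [O.map_Q, O.map_Q], by
        nth_rewrite 2 [← refl_sub_apply (by rw [O.map_Q, hq]) h6]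
        rw [O.map_B, O.map_B, B_symm h4]⟩
  by_cases h6 : Q (s.1 x - a) = 0
  · obtain ⟨z, h7, h8, h9⟩ := key (-a) ((D m).neg_mem ha) (by rwa [QuadraticMap.map_neg]) fun h7 => by
      rw [Q_sub, O.map_Q] at h6 h7
      rw [QuadraticMap.map_neg, polar_neg_right] at h7
      exact mul_ne_zero (mul_ne_zero h2 h2) hκ (by linear_combination h6 + h7 - 2 * hq)
    exact ⟨z, h7, h8, by simpa using h9⟩
  · exact key a ha hq h6

theorem exists_mov (h : Blk Q D π 2) {g : O Q} (hg : ∀ i, ∀ x ∈ D i, g.1 x ∈ D i) (h1 : g ≠ 1) :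
    ∃ i, ∃ x ∈ D i, Q (x - g.1 x) ≠ 0 := by
  by_contra h2
  push Not at h2
  refine h1 (h.ext fun i x hx => by_contra fun h3 => ?_)
  have he := (D i).sub_mem hx (hg i x hx)
  have h0 : x - g.1 x ≠ 0 := sub_ne_zero.2 (Ne.symm h3)
  obtain ⟨f, hf, h4⟩ := (h.ndOn i).exists_hyp he h0 (h2 i x hx)
  have hD : polar Q (x - g.1 x) f ^ 2 ≠ 4 * (Q (x - g.1 x) * Q f) := by rw [h4.hef, h4.he]; simp
  have h5 : ∀ y ∈ D i, ∃ s : F, g.1 y = y - s • (x - g.1 x) := fun y hy => by
    obtain ⟨s, t, h5⟩ := mem_plane (h.dim i) he hf hD ((D i).sub_mem hy (hg i y hy))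
    have h6 := h2 i _ ((D i).add_mem hx hy)
    rw [map_add, add_sub_add_comm, Q_add, h2 i x hx, h2 i y hy, ← h5, polar_add_right, B_smul_right,
      B_smul_right, h4.hee, h4.hef] at h6
    rw [show t = 0 by linear_combination h6, zero_smul, add_zero] at h5
    exact ⟨s, by rw [h5, sub_sub_cancel]⟩
  generalize hx' : x - g.1 x = e at *
  obtain ⟨s, hs⟩ := h5 e he
  obtain ⟨t, ht⟩ := h5 f hf
  have e1 := O.map_Q g f
  rw [ht, Q_sub, Q_smul, B_smul_right, h4.he, h4.hf, h4.hfe] at e1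
  rw [show t = 0 by linear_combination -e1, zero_smul, sub_zero] at ht
  have e2 := O.map_B g e f
  rw [hs, ht, polar_sub_left, B_smul_left, h4.hef] at e2
  rw [show s = 0 by linear_combination -e2, zero_smul, sub_zero] at hs
  obtain ⟨a, b, rfl⟩ := mem_plane (h.dim i) he hf hD hx
  exact h0 (by rw [← hx', map_add, map_smul, map_smul, hs, ht, sub_self])

end Blk

/-- The conditions on the number of planes and on the field. -/
structure Pl (Q : QuadraticForm F V) (D : ι → Submodule F V) : Prop where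
  five : 5 ≤ Fintype.card ι
  hq : 7 ≤ Fintype.card F ∨ (Fintype.card F ≠ 3 ∧ ∀ i, ∀ x ∈ D i, Q x = 0 → x = 0)

namespace Blk

theorem exists_rot (h : Blk Q D π 2) (hp : Pl Q D) {i : ι} {a : V} (ha : a ∈ D i) (hq : Q a ≠ 0)
    {α β : F} (h1 : 5 ≤ Fintype.card F ∨ (4 ≤ Fintype.card F ∧ β = 4) ∨ (α = 4 ∧ β = 4)) :
    ∃ c ∈ D i, Q c ≠ 0 ∧ polar Q a c ^ 2 ≠ 4 * (Q a * Q c) ∧ polar Q a c ^ 2 ≠ α * (Q a * Q c) ∧
      polar Q a c ^ 2 ≠ β * (Q a * Q c) := by
  classical
  obtain ⟨b, hb, h2⟩ := exists_notMem_of_lt (W := D i) (U := F ∙ a)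
    (by rw [h.dim, finrank_span_singleton (ne_zero_of_Q_ne hq)]; omega)
  have h3 := sub_ne_zero.2 (h.disc_ne ha hb hq h2)
  set δ := polar Q a b ^ 2 - 4 * (Q a * Q b) with hδ
  obtain ⟨x, h4, h5, h6⟩ : ∃ x : F, Q (x • a + b) ≠ 0 ∧ (α = 4 ∨ Q (x • a + b) ≠ δ / ((α - 4) * Q a)) ∧
      (β = 4 ∨ Q (x • a + b) ≠ δ / ((β - 4) * Q a)) := by
    rcases hp.hq with h4 | ⟨-, h4⟩
    · obtain ⟨x, hx⟩ := exists_Q_notMem hq b {0, δ / ((α - 4) * Q a), δ / ((β - 4) * Q a)}
        (by have := Finset.card_le_three (a := 0) (b := δ / ((α - 4) * Q a)) (c := δ / ((β - 4) * Q a))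
            omega)
      simp only [Finset.mem_insert, Finset.mem_singleton, not_or] at hx
      exact ⟨x, hx.1, Or.inr hx.2.1, Or.inr hx.2.2⟩
    have h5 : ∀ x : F, Q (x • a + b) ≠ 0 := fun x hx => h2 (by
      rw [eq_neg_of_add_eq_zero_right (h4 i _ ((D i).add_mem ((D i).smul_mem x ha) hb) hx)]
      exact Submodule.neg_mem _ (Submodule.smul_mem _ _ (Submodule.mem_span_singleton_self a)))
    rcases h1 with h1 | h1 | h1
    · obtain ⟨x, hx⟩ := exists_Q_notMem hq b {δ / ((α - 4) * Q a), δ / ((β - 4) * Q a)}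
        (by have := Finset.card_le_two (a := δ / ((α - 4) * Q a)) (b := δ / ((β - 4) * Q a))
            omega)
      simp only [Finset.mem_insert, Finset.mem_singleton, not_or] at hx
      exact ⟨x, h5 x, Or.inr hx.1, Or.inr hx.2⟩
    · obtain ⟨x, hx⟩ := exists_Q_notMem hq b {δ / ((α - 4) * Q a)} (by simp; omega)
      exact ⟨x, h5 x, Or.inr (by simpa using hx), Or.inl h1.2⟩
    · exact ⟨0, h5 0, Or.inl h1.1, Or.inl h1.2⟩
  have h7 : polar Q a (x • a + b) ^ 2 - 4 * (Q a * Q (x • a + b)) = δ := by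
    rw [hδ, polar_add_right, B_smul_right, B_self, Q_add, Q_smul, B_smul_left]; ring
  have h8 : ∀ γ : F, γ = 4 ∨ Q (x • a + b) ≠ δ / ((γ - 4) * Q a) →
      polar Q a (x • a + b) ^ 2 ≠ γ * (Q a * Q (x • a + b)) := fun γ h8 h9 => by
    by_cases h10 : γ = 4
    · exact h3 (by rw [← h7, h9, h10, sub_self])
    · refine h8.resolve_left h10 ((eq_div_iff (mul_ne_zero (sub_ne_zero.2 h10) hq)).2 ?_)
      linear_combination h7 - h9
  exact ⟨_, (D i).add_mem ((D i).smul_mem x ha) hb, h4, h8 4 (Or.inl rfl), h8 α h5, h8 β h6⟩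

theorem rot4 (h : Blk Q D π 2) (hp : Pl Q D) {i : ι} {a : V} (ha : a ∈ D i) (hq : Q a ≠ 0) :
    ∃ c ∈ D i, Q c ≠ 0 ∧ polar Q a c ^ 2 ≠ 4 * (Q a * Q c) ∧ polar Q a c ≠ 0 ∧
      polar Q a c ^ 2 ≠ 2 * (Q a * Q c) := by
  obtain ⟨c, h1, h2, h3, h4, h5⟩ := h.exists_rot hp ha hq (α := 0) (β := 2) (by
    by_cases h2 : (2 : F) = 0
    · exact Or.inr (Or.inr ⟨by linear_combination -2 * h2, by linear_combination -h2⟩)
    · exact Or.inl (hp.hq.elim (by omega) fun h => five_le_card h2 h.1))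
  exact ⟨c, h1, h2, h3, by simpa using h4, h5⟩

theorem exists_pair (h : Blk Q D π 2) (hp : Pl Q D) (i : ι) {c : F} (hc : c ≠ 0) :
    ∃ a ∈ D i, ∃ b ∈ D i, Q a = c ∧ Q b = c ∧ polar Q a b ≠ 0 ∧
      polar Q a b ^ 2 ≠ 4 * (Q a * Q b) := by
  obtain ⟨a, ha, rfl⟩ := h.universal le_rfl i c
  obtain ⟨c, h1, h2, h3, h4, h5⟩ := h.rot4 hp ha hc
  refine ⟨a, ha, _, movIn_apply (refl_mem_movIn h1) ha, rfl, O.map_Q _ _, fun h6 => h5 ?_,
    fun h6 => mul_ne_zero (pow_ne_zero 2 h4) (sub_ne_zero.2 h3) ?_⟩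
  · rw [refl_apply, polar_sub_right, B_smul_right, B_self] at h6
    field_simp at h6
    linear_combination -h6
  · rw [O.map_Q, refl_apply, polar_sub_right, B_smul_right, B_self] at h6
    field_simp at h6
    linear_combination h6

theorem exists_skew (h : Blk Q D π 2) (hp : Pl Q D) {i : ι} {v : V} (hv : v ∈ D i) (h0 : v ≠ 0)
    {c : F} (hc : c ≠ 0) : ∃ x ∈ D i, Q x = c ∧ x ∉ F ∙ v ∧ polar Q v x ≠ 0 := by
  obtain ⟨a, ha, b, hb, h1, h2, h3, h4⟩ := h.exists_pair hp i hc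
  by_contra h5
  push Not at h5
  by_cases h6 : a ∈ F ∙ v <;> by_cases h7 : b ∈ F ∙ v
  · obtain ⟨s, rfl⟩ := Submodule.mem_span_singleton.1 h6
    obtain ⟨t, rfl⟩ := Submodule.mem_span_singleton.1 h7
    exact h4 (by rw [B_smul_left, B_smul_right, B_self, Q_smul, Q_smul]; ring)
  · obtain ⟨s, rfl⟩ := Submodule.mem_span_singleton.1 h6
    exact h3 (by rw [B_smul_left, h5 b hb h2 h7, mul_zero])
  · obtain ⟨s, rfl⟩ := Submodule.mem_span_singleton.1 h7
    exact h3 (by rw [B_smul_right, B_symm (h5 a ha h1 h6), mul_zero])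
  · refine h0 (h.ndOn i v hv fun y hy => ?_)
    obtain ⟨s, t, rfl⟩ := mem_plane (h.dim i) ha hb h4 hy
    simp [h5 a ha h1 h6, h5 b hb h2 h7]

end Blk

namespace Ctx

theorem mem_ext (h : Ctx Q D π k X) {i : ι} {a : V} (ha : a ∈ D i) {g : O Q} (hg : g ∈ Hh Q D)
    (hg' : g ∈ Om Q) : g ∈ extBy X (refl Q a) (refl_mul_self a) := by
  have := Subgroup.Normal.conj_mem inferInstance _ hg' (refl Q a)
  rw [refl_inv] at this
  exact Or.inl ⟨h.le ⟨hg, hg'⟩, h.le ⟨Subgroup.mul_mem _ (Subgroup.mul_mem _ (h.refl_mem ha) hg)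
    (h.refl_mem ha), this⟩⟩

theorem refl_mem_ext (h : Ctx Q D π k X) {i : ι} {a v : V} (ha : a ∈ D i) (hv : UU D X v) {t : F}
    (hq : Q v = t ^ 2 * Q a) : refl Q v ∈ extBy X (refl Q a) (refl_mul_self a) := by
  have h1 := h.rr_mem' hv ha hq
  have h2 := X.inv_mem h1
  rw [mul_inv_rev, refl_inv, refl_inv] at h2
  exact Or.inr ⟨h1, h2⟩

theorem uu_of_ext (h : Ctx Q D π k X) {i : ι} {a v : V} (ha : a ∈ D i) (hq : Q v ≠ 0)
    (hv : refl Q v ∈ extBy X (refl Q a) (refl_mul_self a)) : UU D X v :=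
  (mem_extBy.1 hv).elim (fun h1 => absurd (h.le' h1.1) (refl_notMem_Om h.nd h.good hq))
    fun h1 => h.uu_of_rr hq ha h1.1

theorem refl_mem_ext' (h : Ctx Q D π k X) (h2 : (2 : F) = 0) {i : ι} {a v : V} (ha : a ∈ D i)
    (hq : Q a ≠ 0) (hv : UU D X v) : refl Q v ∈ extBy X (refl Q a) (refl_mul_self a) := by
  obtain ⟨t, ht⟩ := exists_sq_eq_of_two_eq_zero h2 (Q v / Q a)
  exact h.refl_mem_ext ha hv (t := t) (by rw [ht, div_mul_cancel₀ _ hq])

theorem uu_move (h : Ctx Q D π 2 X) {l : ι} {v : V} (hv : UU D X v) (hl : π l v = 0) {g : O Q}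
    (hg : g ∈ Hh Q D) : UU D X (g.1 v) := by
  obtain ⟨c, h1, h2⟩ := h.exists_comp le_rfl l g
  have := h.uu_apply (Subgroup.mul_mem _ hg (h.movIn_le l h1)) h2 hv
  rwa [O.mul_apply, H97o.movIn_fix h.nd h1 fun w hw => B_symm (h.orth_of_proj hw hl)] at this

theorem rr_uu (h : Ctx Q D π 2 X) {v w : V} (hv : UU D X v) (hw : UU D X w) (hq : Q v = Q w)
    (i : ι) : refl Q v * refl Q w ∈ X := by
  obtain ⟨b, hb, h1⟩ := h.universal le_rfl i (Q w)
  have := X.mul_mem (h.rr_mem hv hb (hq.trans h1.symm)) (X.inv_mem (h.rr_mem hw hb h1.symm))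
  rwa [mul_inv_rev, refl_inv, refl_inv, mul_assoc, ← mul_assoc (refl Q b), refl_mul_self,
    one_mul] at this

theorem uu_torus (h : Ctx Q D π 2 X) (hp : Pl Q D) (hF : 4 ≤ Fintype.card F) {i : ι} {w y : V}
    (hw : w ∈ D i) (h0 : w ≠ 0) (hy : π i y = 0) (hq : Q y ≠ 0) (hu : UU D X (w + y))
    (hl : (2 : F) = 0 ∨ ∃ l, l ≠ i ∧ π l y = 0) {x : V} (hx : x ∈ D i) (t : F)
    (h1 : Q (x + t • y) ≠ 0) : UU D X (x + t • y) := by
  obtain ⟨a, ha, hqa⟩ := h.exists_nonsing i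
  obtain ⟨Γ, h2, h3⟩ : ∃ Γ : Subgroup (O Q), (∀ v, (∃ x ∈ D i, ∃ t : F, v = x + t • y) → UU D X v →
      refl Q v ∈ Γ) ∧ ∀ v, Q v ≠ 0 → refl Q v ∈ Γ → UU D X v := by
    rcases hl with h2 | ⟨l, hl, h2⟩
    · exact ⟨_, fun v _ hv => h.refl_mem_ext' h2 ha hqa hv, fun v => h.uu_of_ext ha⟩
    refine ⟨comp X (movIn Q (D l)), ?_, fun v hv ⟨_, c, h3, h4⟩ => ⟨hv, c, h.movIn_le l h3, h4⟩⟩
    rintro _ ⟨x, hx, t, rfl⟩ hv
    obtain ⟨c, h3, h4⟩ := h.exists_comp le_rfl l (refl Q (x + t • y))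
    refine ⟨fun c hc => commute_of_fix h.nd (fun w hw => refl_apply_of_orth (h.orth_of_proj hw ?_)) hc,
      c, h3, h.mul_mem hv (h.movIn_le l h3) h4⟩
    rw [map_add, map_smul, h2, h.proj_other hl hx, smul_zero, add_zero]
  obtain ⟨c, hc, t1, t2, t3, t4⟩ := h.rot4 hp ha hqa
  obtain ⟨c', hc', t5, t6, t7, -⟩ := h.exists_rot hp ha hqa (α := 1) (Or.inr (Or.inl ⟨hF, rfl⟩))
  refine h3 _ h1 (torus hF (h.ndOn i) (h.dim i) ha hc hc' hqa t1 t5 t2 t3 t4 t6 t7 hq
    (fun x hx => B_symm (h.orth_of_proj hx hy)) (fun b hb => ?_) hw h0 hu.1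
    (h2 _ ⟨w, hw, 1, by rw [one_smul]⟩ hu) hx t)
  by_cases h4 : Q b = 0
  · rw [refl_of_Q_eq_zero h4]; exact Γ.one_mem
  · exact h2 _ ⟨b, hb, 0, by simp⟩ (h.uu_of_mem hb h4)

theorem uu_two (h : Ctx Q D π 2 X) (hp : Pl Q D) (hF : 4 ≤ Fintype.card F) {i j : ι} (hij : i ≠ j)
    {w y : V} (hw : w ∈ D i) (h0 : w ≠ 0) (hy : y ∈ D j) (hq : Q y ≠ 0) (hu : UU D X (w + y))
    {a b : V} (ha : a ∈ D i) (hb : b ∈ D j) (h1 : Q (a + b) ≠ 0) : UU D X (a + b) := by
  obtain ⟨l, hl⟩ := exists_notMem_list [i, j] (by have := hp.five; simp; omega)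
  simp only [List.mem_cons, List.not_mem_nil, or_false, not_or] at hl
  have key : ∀ i j, i ≠ j → l ≠ i → l ≠ j → ∀ w ∈ D i, ∀ y ∈ D j, w ≠ 0 → Q y ≠ 0 → UU D X (w + y) →
      ∀ x ∈ D i, Q x ≠ 0 → ∀ z ∈ D j, ∀ s : F, Q (z + s • x) ≠ 0 → UU D X (z + s • x) :=
    fun i j hij li lj w hw y hy h0 hq hu x hx h1 z hz s h2 => by
      obtain ⟨t, ht, h3⟩ := exists_sq_avoid hF h1 (Q y)
      have h4 := h.uu_torus hp hF hw h0 (h.proj_other hij hy) hq hu
        (Or.inr ⟨l, li, h.proj_other lj hy⟩) hx t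
        (by rwa [Q_add_orth (h.orth i j hij x hx _ ((D j).smul_mem t hy)), Q_smul])
      rw [add_comm] at h4
      exact h.uu_torus hp hF ((D j).smul_mem t hy) (smul_ne_zero ht (ne_zero_of_Q_ne hq))
        (h.proj_other hij.symm hx) h1 h4 (Or.inr ⟨l, lj, h.proj_other li hx⟩) hz s h2
  by_cases h2 : Q a = 0
  · rw [Q_add_orth (h.orth i j hij a ha b hb), h2, zero_add] at h1
    obtain ⟨x, hx, h3⟩ := h.exists_nonsing i
    obtain ⟨t, ht, h4⟩ := exists_sq_avoid hF h1 (Q x)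
    have h5 := key i j hij hl.1 hl.2 w hw y hy h0 hq hu x hx h3 b hb t
      (by rwa [Q_add_orth (h.orth j i hij.symm b hb _ ((D i).smul_mem t hx)), Q_smul])
    rw [add_comm] at h5
    simpa using h.uu_torus hp hF ((D i).smul_mem t hx) (smul_ne_zero ht (ne_zero_of_Q_ne h3))
      (h.proj_other hij hb) h1 h5 (Or.inr ⟨l, hl.1, h.proj_other hl.2 hb⟩) ha 1
      (by rwa [one_smul, Q_add_orth (h.orth i j hij a ha b hb), h2, zero_add])
  · simpa [add_comm] using key i j hij hl.1 hl.2 w hw y hy h0 hq hu a ha h2 b hb 1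
      (by rwa [one_smul, add_comm])

theorem finrank_ne (h : Ctx Q D π 2 X) {i j : ι} (hij : i ≠ j) : finrank F V ≠ 2 := fun h1 => by
  obtain ⟨x, hx, hq⟩ := h.exists_nonsing j
  exact hij (h.eq_of_mem (Submodule.eq_top_of_finrank_eq ((h.dim i).trans h1.symm) ▸ Submodule.mem_top)
    hx (ne_zero_of_Q_ne hq))

theorem of_two (h : Ctx Q D π 2 X) (hp : Pl Q D) (hF : 4 ≤ Fintype.card F) {i j : ι} (hij : i ≠ j)
    (hu : ∀ a ∈ D i, ∀ b ∈ D j, Q (a + b) ≠ 0 → UU D X (a + b)) : Om Q ≤ X := by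
  obtain ⟨a, ha, hq⟩ := h.exists_nonsing i
  obtain ⟨b, hb, h1⟩ := h.universal le_rfl j (-Q a)
  have hd : Q (a + b) = 0 := by rw [Q_add_orth (h.orth i j hij a ha b hb), h1, add_neg_cancel]
  have hc := exists_ne_zero_one (F := F) (by omega)
  have hW : NdOn Q (D i ⊔ D j) := fun x hx h2 => by
    obtain ⟨y, hy, z, hz, rfl⟩ := Submodule.mem_sup.1 hx
    rw [h.ndOn i y hy fun w hw => by
        rw [← h2 w (Submodule.mem_sup_left hw), polar_add_left, h.orth j i hij.symm z hz w hw, add_zero],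
      h.ndOn j z hz fun w hw => by
        rw [← h2 w (Submodule.mem_sup_right hw), polar_add_left, h.orth i j hij y hy w hw, zero_add],
      add_zero]
  have hu' : ∀ x ∈ D i ⊔ D j, Q x ≠ 0 → UU D X x := fun x hx h2 => by
    obtain ⟨y, hy, z, hz, rfl⟩ := Submodule.mem_sup.1 hx
    exact hu y hy z hz h2
  have hπ : π i (a + b) = a := by rw [map_add, h.proj_self ha, h.proj_other hij hb, add_zero]
  have hdW := Submodule.add_mem_sup ha hb
  generalize a + b = d at hd hπ hdW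
  obtain ⟨f, hf, hdf⟩ := hW.exists_hyp hdW (by rintro rfl; exact ne_zero_of_Q_ne hq (by simpa using hπ.symm)) hd
  have h2 : ∀ w ∈ D i ⊔ D j, polar Q d w = 0 → w ∈ TF X d := fun w hw h2 => by
    have h3 := (hW.inf_hyp hdW hf hdf).le_of_nonsing (Or.inr hc) (Y := TF X d)
      (fun w ⟨⟨h3, h4⟩, _⟩ h5 => mem_TF_of_refl hd h5 (mem_orth.1 h4) fun c => by
        have h6 := Q_add_smul_sing hd (mem_orth.1 h4) c
        exact h.rr_uu (hu' _ (Submodule.add_mem _ h3 (Submodule.smul_mem _ c hdW)) (h6 ▸ h5))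
          (hu' _ h3 h5) h6 i) (x := w - polar Q f w • d)
      ⟨⟨Submodule.sub_mem _ hw (Submodule.smul_mem _ _ hdW), mem_orth.2 (by
        rw [polar_sub_right, B_smul_right, h2, hdf.hee]; simp)⟩, mem_orth.2 (by
        rw [polar_sub_right, B_smul_right, hdf.hfe]; simp)⟩
    simpa using Submodule.add_mem _ h3 (Submodule.smul_mem _ (polar Q f w) (self_mem_TF hd))
  have h3 : ∀ m, m ≠ i → m ≠ j → ∀ x ∈ D i ⊔ D j, ∀ w ∈ D m, polar Q x w = 0 := fun m mi mj x hx w hw => by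
    obtain ⟨y, hy, z, hz, rfl⟩ := Submodule.mem_sup.1 hx
    rw [polar_add_left, h.orth i m mi.symm y hy w hw, h.orth j m mj.symm z hz w hw, add_zero]
  have d1 := finrank_inf_orth (Q := Q) (D j) d
  rw [h.dim] at d1
  obtain ⟨y, ⟨hy, h4⟩, h5⟩ := exists_notMem_of_lt (W := D j ⊓ orth Q d) (U := ⊥)
    (by rw [finrank_bot]; omega)
  rw [SetLike.mem_coe, mem_orth] at h4
  obtain ⟨w, hw, h6, h7⟩ := hW.exists_orth_B_eq hdW (Submodule.mem_sup_right hy) (fun h6 => by
    obtain ⟨t, rfl⟩ := Submodule.mem_span_singleton.1 h6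
    have := h.proj_other hij hy
    rw [map_smul, hπ, smul_eq_zero, or_iff_left (ne_zero_of_Q_ne hq)] at this
    simp [this] at h5) 1
  have h8 : ∀ m, m ≠ i → m ≠ j → D m ≤ TF X d := fun m mi mj =>
    (h.ndOn m).le_of_nonsing (Or.inr hc) fun x hx h8 => by
      obtain ⟨l, hl⟩ := exists_notMem_list [i, j, m] (by have := hp.five; simp; omega)
      simp only [List.mem_cons, List.not_mem_nil, or_false, not_or] at hl
      obtain ⟨t, ht, h9⟩ := exists_sq_avoid hF h8 (Q y)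
      obtain ⟨s, h10, h11, h12⟩ := h.exists_map i m
      obtain ⟨x', h13, rfl⟩ := h.onto h11 hx
      have h14 := (D j).smul_mem t hy
      have h15 := h.uu_move (hu x' h13 _ h14 (by
        rwa [Q_add_orth (h.orth i j hij _ h13 _ h14), Q_smul, ← O.map_Q s])) (l := l)
        (by rw [map_add, h.proj_other hl.1 h13, h.proj_other hl.2.1 h14, add_zero]) h10
      rw [map_add, h12 _ (h.proj_other hij h14) (h.proj_other mj h14)] at h15
      obtain ⟨c, h16, h17⟩ := h.universal le_rfl l (Q (s.1 x' + t • y))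
      have h18 := TF_fix (h.rr_mem h15 h16 h17.symm) (d := d) (by
        rw [O.mul_apply, refl_apply_of_orth (h3 l hl.1 hl.2.1 d hdW c h16), refl_apply_of_orth (by
          rw [polar_add_right, B_smul_right, h4, h3 m mi mj d hdW _ hx]; simp)]) (h2 w hw h6)
      rw [O.mul_apply, refl_apply_of_orth (h3 l hl.1 hl.2.1 w hw c h16)] at h18
      have h19 := mem_of_refl_mem h15.1 (by
        rwa [polar_add_right, B_smul_right, polar_comm _ w y, h7, h3 m mi mj w hw _ hx, zero_add,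
          mul_one]) (h2 w hw h6) h18
      simpa using Submodule.sub_mem _ h19
        (Submodule.smul_mem _ t (h2 y (Submodule.mem_sup_right hy) h4))
  obtain ⟨l, hl⟩ := exists_notMem_list [i, j] (by have := hp.five; simp; omega)
  simp only [List.mem_cons, List.not_mem_nil, or_false, not_or] at hl
  have hm := Submodule.add_mem _ hdW (Submodule.smul_mem _ (1 : F) hf)
  have h9 : Q (d + (1 : F) • f) = 1 := by simpa using hdf.Q_comb 1 1
  obtain ⟨c, h10, h11⟩ := h.universal le_rfl l 1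
  refine Om_le_of_TF' h.nd h.good (h.finrank_ne hij) hd (fun x hx => ?_)
    (h.rr_mem (hu' _ hm (by rw [h9]; exact one_ne_zero)) h10 (h9.trans h11.symm)) ?_
  · have h12 : x - (π i x + π j x) ∈ TF X d := h.mem_of_proj_mem fun m => by
      rw [map_sub, map_add, h.proj_ite m (h.mem i x), h.proj_ite m (h.mem j x)]
      split_ifs with h12 h13 h13
      · exact absurd (h12.symm.trans h13) hij
      · simp [h12]
      · simp [h13]
      · simpa using h8 m h12 h13 (h.mem m x)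
    have h13 := h12.1
    rw [polar_sub_right, hx, zero_sub, neg_eq_zero] at h13
    simpa using Submodule.add_mem _ h12 (h2 _ (Submodule.add_mem_sup (h.mem i x) (h.mem j x)) h13)
  · rw [O.mul_apply, refl_apply_of_orth (h3 l hl.1 hl.2 d hdW c h10), hdf.refl_e one_ne_zero,
      B_smul_right, hdf.hef]
    simp

theorem of_card_two (h : Ctx Q D π 2 X) (hp : Pl Q D) (hF : Fintype.card F = 2) {u : V}
    (hu : UU D X u) (hs : 2 ≤ (bsup π u).card) : Om Q ≤ X := by
  have h2 := two_eq_zero_of_card_two hF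
  have h1 : ∀ {i}, ∀ {x}, x ∈ D i → x ≠ 0 → Q x = 1 := fun {i x} hx h0 =>
    eq_one_of_card_two hF fun e => h0 ((hp.hq.resolve_left (by omega)).2 i x hx e)
  have hn : ∀ x : V, -x = x := fun x => by
    rw [neg_eq_iff_add_eq_zero, ← two_smul F x, h2, zero_smul]
  obtain ⟨i, j, k, hi, hj, hk, hij, hik, hjk⟩ := Finset.two_lt_card_iff.1 (hs.lt_of_ne fun h3 => by
    obtain ⟨i, j, hij, h4⟩ := Finset.card_eq_two.1 h3.symm
    refine hu.1 ?_
    rw [h.Q_sum, ← Finset.sum_subset (Finset.subset_univ (bsup π u)) fun i _ hi => by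
      rw [not_not.1 (mt mem_bsup.2 hi), map_zero], Finset.sum_congr rfl fun i hi =>
        h1 (h.mem i u) (mem_bsup.1 hi), h4, Finset.sum_pair hij]
    linear_combination h2)
  obtain ⟨a₀, ha₀, hq₀⟩ := h.exists_nonsing i
  refine Om_le_of_extBy h.nd h.good h.le' hq₀ ?_
  have hR := fun v => h.refl_mem_ext' h2 ha₀ hq₀ (v := v)
  have hR' := fun v => h.uu_of_ext (v := v) ha₀
  generalize extBy X (refl Q a₀) (refl_mul_self a₀) = R at hR hR'
  have hb : ∀ {i x}, x ∈ D i → x ≠ 0 → refl Q x ∈ R := fun hx h0 =>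
    hR _ (h.uu_of_mem hx (h1 hx h0 ▸ one_ne_zero))
  have hc : ∀ g ∈ R, ∀ v, refl Q v ∈ R → refl Q (g.1 v) ∈ R := fun g hg v hv => by
    rw [← refl_conj]; exact R.mul_mem (R.mul_mem hg hv) (R.inv_mem hg)
  have h3 : ∀ i ∈ bsup π u, ∃ x ∈ D i, Q x = 1 ∧ polar Q u x = 1 := fun i hi => by
    obtain ⟨x, h3, h4, -, h5⟩ := h.exists_skew hp (h.mem i u) (mem_bsup.1 hi) one_ne_zero
    exact ⟨x, h3, h4, by rw [polar_comm, ← h.B_proj h3, polar_comm, eq_one_of_card_two hF h5]⟩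
  obtain ⟨a, ha, qa, ba⟩ := h3 i hi
  obtain ⟨b, hb', qb, bb⟩ := h3 j hj
  obtain ⟨c, hc', qc, bc⟩ := h3 k hk
  have n1 : ∀ {x : V}, Q x = 1 → x ≠ 0 := fun hx => ne_zero_of_Q_ne (hx ▸ one_ne_zero)
  have h4 : refl Q (a + b + c) ∈ R := by
    have := hc _ (hR u hu) _ (hc _ (hb ha (n1 qa)) _ (hc _ (hb hb' (n1 qb)) _
      (hc _ (hb hc' (n1 qc)) _ (hR u hu))))
    simp only [refl_apply, qa, qb, qc, ba, bb, bc, polar_sub_left, B_self, h2, inv_one, one_mul,
      one_smul, h.orth k j hjk.symm c hc' b hb', h.orth k i hik.symm c hc' a ha, sub_zero,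
      h.orth j i hij.symm b hb' a ha, eq_one_of_card_two hF hu.1, polar_comm Q _ u, zero_mul,
      polar_sub_right] at this
    rw [show (0 : F) - 1 - 1 - 1 = 1 by linear_combination -2 * h2, one_smul,
      show u - c - b - a - u = -(a + b + c) by abel, refl_neg] at this
    exact this
  have h5 : ∀ {i m x y z}, x ∈ D i → z ∈ D m → z ≠ 0 → x ≠ 0 → π i y = 0 → π m y = 0 → Q (x + y) ≠ 0 →
      (∃ l, π l (x + y) = 0) → refl Q (x + y) ∈ R → refl Q (z + y) ∈ R := by
    intro i m x y z hx hz h0 h0' h5 h6 h7 ⟨l, hl⟩ h8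
    obtain ⟨s, h9, h10, h11⟩ := h.exists_map i m
    have h12 := hR _ (h.uu_move (hR' _ h7 h8) hl h9)
    rw [map_add, h11 y h5 h6] at h12
    by_cases h13 : s.1 x - z = 0
    · rwa [← sub_eq_zero.1 h13]
    have h14 := (D m).sub_mem (h10 x hx) hz
    have := hc _ (hb h14 h13) _ h12
    rwa [map_add, refl_sub_apply (by rw [O.map_Q, h1 hx h0', h1 hz h0]) (h1 h14 h13 ▸ one_ne_zero),
      refl_apply_of_orth (B_symm (h.orth_of_proj h14 h6))] at this
  have h6 : ∀ {i j k x y z}, i ≠ j → i ≠ k → j ≠ k → x ∈ D i → y ∈ D j → z ∈ D k → x ≠ 0 → y ≠ 0 →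
      z ≠ 0 → Q (x + y + z) = 1 ∧ ∃ l, π l (x + (y + z)) = 0 := by
    intro i j k x y z hij hik hjk hx hy hz x0 y0 z0
    obtain ⟨l, hl⟩ := exists_notMem_list [i, j, k] (by have := hp.five; simp; omega)
    simp only [List.mem_cons, List.not_mem_nil, or_false, not_or] at hl
    refine ⟨?_, l, by simp [h.proj_other hl.1 hx, h.proj_other hl.2.1 hy, h.proj_other hl.2.2 hz]⟩
    rw [Q_add, Q_add, polar_add_left, h1 hx x0, h1 hy y0, h1 hz z0, h.orth i j hij x hx y hy,
      h.orth i k hik x hx z hz, h.orth j k hjk y hy z hz]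
    linear_combination h2
  have h7 : ∀ {i j k m x y z w}, i ≠ j → i ≠ k → j ≠ k → m ≠ j → m ≠ k → x ∈ D i → y ∈ D j → z ∈ D k →
      w ∈ D m → x ≠ 0 → y ≠ 0 → z ≠ 0 → w ≠ 0 → refl Q (x + y + z) ∈ R → refl Q (y + z + w) ∈ R := by
    intro i j k m x y z w hij hik hjk mj mk hx hy hz hw x0 y0 z0 w0 h7
    obtain ⟨h8, h9⟩ := h6 hij hik hjk hx hy hz x0 y0 z0
    rw [add_assoc] at h7 h8
    rw [add_comm]
    exact h5 hx hw w0 x0 (by simp [h.proj_other hij hy, h.proj_other hik hz])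
      (by simp [h.proj_other mj hy, h.proj_other mk hz]) (h8 ▸ one_ne_zero) h9 h7
  have h8 : ∀ m, m ≠ i → m ≠ j → ∀ x ∈ D i, ∀ y ∈ D j, ∀ z ∈ D m, x ≠ 0 → y ≠ 0 → z ≠ 0 →
      refl Q (x + y + z) ∈ R := fun m mi mj x hx y hy z hz x0 y0 z0 =>
    h7 hik.symm hjk.symm hij mi mj hc' hx hy hz (n1 qc) x0 y0 z0 (h7 hjk hij.symm hik.symm hjk hij.symm
      hb' hc' hx hy (n1 qb) (n1 qc) x0 y0 (h7 hij hik hjk hij hik ha hb' hc' hx (n1 qa) (n1 qb)
        (n1 qc) x0 h4))
  have hd : Q (a + b) = 0 := by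
    rw [Q_add_orth (h.orth i j hij a ha b hb'), qa, qb]; linear_combination h2
  have hT : ∀ w, Q w ≠ 0 → polar Q (a + b) w = 0 → refl Q w ∈ R → refl Q (w + (a + b)) ∈ R →
      w ∈ TF R (a + b) := fun w h9 h10 h11 h12 => mem_TF_of_refl hd h9 h10 fun t => R.mul_mem (by
    by_cases ht : t = 0
    · rwa [ht, zero_smul, add_zero]
    · rwa [eq_one_of_card_two hF ht, one_smul]) h11
  have h9 : ∀ m, m ≠ i → m ≠ j → D m ≤ TF R (a + b) := fun m mi mj x hx => by
    by_cases h0 : x = 0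
    · rw [h0]; exact Submodule.zero_mem _
    · exact hT x (h1 hx h0 ▸ one_ne_zero) (by
        rw [polar_add_left, h.orth i m mi.symm a ha x hx, h.orth j m mj.symm b hb' x hx, add_zero])
        (hb hx h0) (add_comm x _ ▸ h8 m mi mj a ha b hb' x hx (n1 qa) (n1 qb) h0)
  have h10 : a ∈ TF R (a + b) := hT a (qa ▸ one_ne_zero) (by
      rw [polar_add_left, B_self, h2, h.orth j i hij.symm b hb' a ha]; simp) (hb ha (n1 qa))
    (by rw [← add_assoc, ← two_smul F a, h2, zero_smul, zero_add]; exact hb hb' (n1 qb))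
  have h11 : b ∈ TF R (a + b) := by simpa using Submodule.sub_mem _ (self_mem_TF hd) h10
  have h12 : ∀ {i a x}, a ∈ D i → x ∈ D i → Q a = 1 → polar Q a x = 0 → x ∈ F ∙ a :=
    fun ha hx qa h12 => by_contra fun h13 => h.disc_ne ha hx (qa ▸ one_ne_zero) h13 (by
      rw [h12, show (4 : F) = 2 * 2 by norm_num, h2]; simp)
  obtain ⟨z, hz, qz, -, bz⟩ := h.exists_skew hp ha (n1 qa) one_ne_zero
  refine Om_le_of_TF' h.nd h.good (h.finrank_ne hij) hd (fun x hx => ?_) (hb hz (n1 qz)) ?_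
  · have h13 : x - (π i x + π j x) ∈ TF R (a + b) := h.mem_of_proj_mem fun m => by
      rw [map_sub, map_add, h.proj_ite m (h.mem i x), h.proj_ite m (h.mem j x)]
      split_ifs with h12 h13 h13
      · exact absurd (h12.symm.trans h13) hij
      · simp [h12]
      · simp [h13]
      · simpa using h9 m h12 h13 (h.mem m x)
    rw [polar_add_left, ← h.B_proj ha, ← h.B_proj hb'] at hx
    have hx1 := h.mem i x
    have hx2 := h.mem j x
    generalize π i x = y, π j x = w at h13 hx hx1 hx2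
    suffices y + w ∈ TF R (a + b) by simpa using Submodule.add_mem _ h13 this
    by_cases h14 : polar Q a y = 0
    · rw [h14, zero_add] at hx
      exact Submodule.add_mem _ ((Submodule.span_singleton_le_iff_mem _ _).2 h10 (h12 ha hx1 qa h14))
        ((Submodule.span_singleton_le_iff_mem _ _).2 h11 (h12 hb' hx2 qb hx))
    have h15 : polar Q b w ≠ 0 := fun e => h14 (by rwa [e, add_zero] at hx)
    have y0 := ne_zero_of_B_ne_right h14
    have w0 := ne_zero_of_B_ne_right h15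
    have h16 := hT (y + w + c) ((h6 hij hik hjk hx1 hx2 hc' y0 w0 (n1 qc)).1 ▸ one_ne_zero) (by
        simp only [polar_add_left, polar_add_right, h.orth i j hij a ha w hx2, h.orth i k hik a ha c hc',
          h.orth j i hij.symm b hb' y hx1, h.orth j k hjk b hb' c hc']
        linear_combination hx)
      (h8 k hik.symm hjk.symm y hx1 w hx2 c hc' y0 w0 (n1 qc)) (by
        rw [show y + w + c + (a + b) = y + a + (w + b) + c by abel]
        exact h8 k hik.symm hjk.symm _ ((D i).add_mem hx1 ha) _ ((D j).add_mem hx2 hb') c hc'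
          (ne_zero_of_B_ne_right (Q := Q) (v := a) (by rwa [polar_add_right, B_self, h2, zero_mul, add_zero]))
          (ne_zero_of_B_ne_right (Q := Q) (v := b) (by rwa [polar_add_right, B_self, h2, zero_mul, add_zero]))
          (n1 qc))
    simpa using Submodule.sub_mem _ h16 (h9 k hik.symm hjk.symm hc')
  · rw [refl_apply, polar_sub_right, B_sing hd, B_smul_right, polar_add_left,
      h.orth j i hij.symm b hb' z hz, qz]
    simpa using bz

theorem drop (h : Ctx Q D π 2 X) (hp : Pl Q D) (hF : 4 ≤ Fintype.card F) {u : V} (hu : UU D X u)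
    (hl : (2 : F) = 0 ∨ (bsup π u).card ≤ 3) {i : ι} (hi : i ∈ bsup π u) (hq : Q (u - π i u) ≠ 0) :
    ∃ v, UU D X v ∧ (bsup π v).card + 1 = (bsup π u).card := by
  have h1 : ∀ m, π m (u - π i u) = if m = i then 0 else π m u := fun m => by
    rw [map_sub, h.proj_ite m (h.mem i u)]
    split_ifs with h1 <;> simp [h1]
  have := h.uu_torus hp hF (h.mem i u) (mem_bsup.1 hi) (by rw [h1, if_pos rfl]) hq
    (by rwa [add_sub_cancel]) (hl.imp id fun hl => by
      obtain ⟨l, -, h2⟩ := Finset.exists_mem_notMem_of_card_lt_card (s := bsup π u) (t := Finset.univ)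
        (by have := hp.five; rw [Finset.card_univ]; omega)
      have h3 : l ≠ i := by rintro rfl; exact h2 hi
      exact ⟨l, h3, by rw [h1, if_neg h3, not_not.1 (mt mem_bsup.2 h2)]⟩) (D i).zero_mem 1
    (by rwa [zero_add, one_smul])
  rw [zero_add, one_smul] at this
  refine ⟨_, this, ?_⟩
  rw [← Finset.card_erase_add_one hi]
  congr 2
  ext m
  rw [Finset.mem_erase, mem_bsup, mem_bsup, h1]
  split_ifs with h2 <;> simp [h2]

theorem dt (h : Ctx Q D π 2 X) (hp : Pl Q D) (h2 : (2 : F) ≠ 0) {u : V} (hu : UU D X u)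
    (hs : 4 ≤ (bsup π u).card) :
    ∃ v, UU D X v ∧ 2 ≤ (bsup π v).card ∧ (bsup π v).card < (bsup π u).card := by
  obtain ⟨i, j, hi, hj, hij⟩ := Finset.one_lt_card_iff.1 (by omega : 1 < (bsup π u).card)
  rw [mem_bsup] at hi hj
  obtain ⟨x, hx, qx, h3, h4⟩ := h.exists_skew hp (h.mem i u) hi hu.1
  obtain ⟨κ, hκ, h5⟩ := h.exists_kappa i hu.1
  obtain ⟨x', hx', qx', h6⟩ := h5 i x hx qx
  obtain ⟨y, hy, qy⟩ := h.universal le_rfl j (Q u)
  obtain ⟨y', hy', qy', h7⟩ := h5 j y hy qy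
  have h8 : ∀ {i a b}, a ∈ D i → b ∈ D i → Q a = Q u → Q b = κ → polar Q b a = 0 → ∀ z ∈ D i,
      (refl Q a).1 ((refl Q b).1 z) = -z := by
    intro i a b ha hb qa qb h8 z hz
    obtain ⟨s, t, rfl⟩ := mem_plane (h.dim i) ha hb (by
      rw [B_symm h8, qa, qb]
      exact fun e => mul_ne_zero (mul_ne_zero h2 h2) (mul_ne_zero hu.1 hκ)
        (by linear_combination -e)) hz
    simp only [map_add, map_smul, map_neg, refl_apply_of_orth h8, refl_apply_of_orth (B_symm h8),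
      refl_apply_self (qa ▸ hu.1), refl_apply_self (qb ▸ hκ)]
    module
  set τ := refl Q x * refl Q y * (refl Q x' * refl Q y') with hτ
  have h9 : ∀ m, ∀ z ∈ D m, τ.1 z = if m = i ∨ m = j then -z else z := fun m z hz => by
    simp only [hτ, O.mul_apply]
    by_cases mi : m = i
    · subst mi
      rw [h.refl_other hij hz hy', h.refl_other hij (movIn_apply (refl_mem_movIn hx') hz) hy,
        h8 hx hx' qx qx' h6 z hz, if_pos (Or.inl rfl)]
    by_cases mj : m = j
    · subst mj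
      rw [h.refl_other mi (movIn_apply (refl_mem_movIn hy') hz) hx', h8 hy hy' qy qy' h7 z hz,
        h.refl_other mi ((D m).neg_mem hz) hx, if_pos (Or.inr rfl)]
    rw [h.refl_other mj hz hy', h.refl_other mi hz hx', h.refl_other mj hz hy, h.refl_other mi hz hx,
      if_neg (not_or.2 ⟨mi, mj⟩)]
  have h10 : ∀ m z, π m (τ.1 z) = if m = i ∨ m = j then -π m z else π m z := fun m z => by
    rw [h.proj_comm (i := m) (fun w hw => by
      rw [h9 m w hw]; split_ifs
      exacts [(D m).neg_mem hw, hw]), h9 m _ (h.mem m z)]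
  set b := π i u + π j u with hb
  have h11 : ∀ m, π m b = if m = i ∨ m = j then π m u else 0 := fun m => by
    rw [hb, map_add, h.proj_ite m (h.mem i u), h.proj_ite m (h.mem j u)]
    by_cases mi : m = i
    · simp [mi, hij]
    by_cases mj : m = j <;> simp [mi, mj, hij.symm]
  have h12 : ∀ v, UU D X v → π i v ≠ 0 → π j v ≠ 0 → (∀ m, m ≠ i → m ≠ j → π m v = 0) →
      ∃ v, UU D X v ∧ 2 ≤ (bsup π v).card ∧ (bsup π v).card < (bsup π u).card :=
    fun v hv e1 e2 e3 => by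
      have : (bsup π v).card = 2 := Finset.card_eq_two.2 ⟨i, j, hij, by
        ext m
        have := e3 m
        simp only [mem_bsup, Finset.mem_insert, Finset.mem_singleton]
        grind⟩
      exact ⟨v, hv, by omega, by omega⟩
  have h13 : ∀ (t : F) (z : V), Q (t • z) = Q (u - b + b) → Q z ≠ 0 := fun t z e1 e2 =>
    hu.1 (by rw [sub_add_cancel, Q_smul, e2, mul_zero] at e1; exact e1.symm)
  have hτb : τ.1 b = -b := h.ext_proj fun l => by rw [h10, map_neg, h11]; split_ifs <;> simp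
  have hτa : τ.1 (u - b) = u - b := h.ext_proj fun l => by rw [h10, map_sub, h11]; split_ifs <;> simp
  have hτx : τ.1 x = -x := by rw [h9 i x hx, if_pos (Or.inl rfl)]
  rcases refl_invol_cases h.nd h2 (τ := τ) (h.mem_ext hx
      (Subgroup.mul_mem _ (Subgroup.mul_mem _ (h.refl_mem hx) (h.refl_mem hy))
        (Subgroup.mul_mem _ (h.refl_mem hx') (h.refl_mem hy')))
      (Subgroup.mul_mem _ (rr_mem_Om h.nd (qx.trans qy.symm)) (rr_mem_Om h.nd (qx'.trans qy'.symm))))
    (O.ext fun z => h.ext_proj fun l => by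
      rw [O.mul_apply, h10, h10, O.one_apply]; split_ifs <;> simp)
    (fun v hv e => by
      have e1 := hτx
      have e2 := h9 j y hy
      rw [if_pos (Or.inr rfl)] at e2
      rw [e, refl_apply] at e1 e2
      generalize (Q v)⁻¹ * polar Q x v = s, (Q v)⁻¹ * polar Q y v = t at e1 e2
      have e3 := congrArg (π j) (show (2 : F) • x = s • v by linear_combination (norm := module) e1)
      have e4 := congrArg (π j) (show (2 : F) • y = t • v by linear_combination (norm := module) e2)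
      rw [map_smul, map_smul, h.proj_other hij.symm hx, smul_zero, eq_comm, smul_eq_zero] at e3
      rw [map_smul, map_smul, h.proj_self hy] at e4
      rcases e3 with e3 | e3
      · exact ne_zero_of_Q_ne (qx ▸ hu.1)
          (eq_zero_of_eq_neg h2 (by rwa [e3, zero_smul, sub_zero] at e1))
      · rw [e3, smul_zero, smul_eq_zero] at e4
        exact ne_zero_of_Q_ne (qy ▸ hu.1) (e4.resolve_left h2)) hτa hτb
    (by rw [sub_add_cancel]; exact hu.1)
    (by rw [sub_add_cancel]; exact h.refl_mem_ext hx hu (t := 1) (by rw [qx]; ring))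
    with ⟨t, e1, e2⟩ | ⟨t, e1, e2⟩ | ⟨γ, e1, -, e2, e3, e4⟩
  · have e3 : bsup π (u - b) = bsup π u \ {i, j} := by
      ext l
      simp only [mem_bsup, map_sub, h11, Finset.mem_sdiff, Finset.mem_insert, Finset.mem_singleton]
      split_ifs with e3 <;> simp [e3]
    have := Finset.le_card_sdiff {i, j} (bsup π u)
    have := Finset.card_le_two (a := i) (b := j)
    refine ⟨_, h.uu_of_ext hx (h13 t _ e1) e2, by rw [e3]; omega, Finset.card_lt_card ?_⟩
    rw [e3]
    exact ⟨Finset.sdiff_subset, fun e4 => by simpa using e4 (mem_bsup.2 hi)⟩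
  · exact h12 _ (h.uu_of_ext hx (h13 t _ e1) e2) (by simpa [h11]) (by simpa [h11])
      fun m mi mj => by simp [h11, mi, mj]
  · obtain ⟨s, t, hst⟩ := Submodule.mem_span_pair.1 (e3 x)
    have e5 : γ.1 x = x - s • (u - b) - t • b := by linear_combination (norm := module) hst
    have e6 := congrArg (fun g : O Q => g.1 x) e4.eq
    simp only [O.mul_apply] at e6
    rw [hτx, map_neg, e5, map_sub _ (x - _), map_sub _ x, map_smul, map_smul, hτa, hτb, hτx] at e6
    rw [eq_zero_of_eq_neg h2 (x := s • (u - b)) (by linear_combination (norm := module) e6),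
      sub_zero] at e5
    have ht : t ≠ 0 := by
      rintro rfl
      have e7 := O.map_B γ b x
      rw [e2, e5, zero_smul, sub_zero, polar_neg_left, polar_comm, ← h.B_proj hx, h11,
        if_pos (Or.inl rfl), polar_comm] at e7
      exact mul_ne_zero h2 h4 (by linear_combination -e7)
    refine h12 _ (h.uu_of_ext hx (v := γ.1 x) (by rw [O.map_Q, qx]; exact hu.1) (by
      rw [← refl_conj]
      exact Subgroup.mul_mem _ (Subgroup.mul_mem _ e1 (h.refl_mem_ext hx (h.uu_of_mem hx (qx ▸ hu.1))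
        (t := 1) (by ring))) (Subgroup.inv_mem _ e1))) (fun e7 => h3 ?_) ?_ fun m mi mj => ?_
    · rw [e5, map_sub, map_smul, h11, h.proj_self hx, if_pos (Or.inl rfl), sub_eq_zero] at e7
      exact Submodule.mem_span_singleton.2 ⟨t, e7.symm⟩
    · simp [e5, h11, h.proj_other hij.symm hx, ht, hj]
    · simp [e5, h11, h.proj_other mi hx, mi, mj]

theorem of_uu_two (h : Ctx Q D π 2 X) (hp : Pl Q D) {u : V} (hu : UU D X u)
    (hs : 2 ≤ (bsup π u).card) : Om Q ≤ X := by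
  by_cases hF2 : Fintype.card F = 2
  · exact h.of_card_two hp hF2 hu hs
  have hF : 4 ≤ Fintype.card F := by
    have : 1 < Fintype.card F := Fintype.one_lt_card
    rcases hp.hq with h | h <;> omega
  induction hn : (bsup π u).card using Nat.strong_induction_on generalizing u with | _ n ih =>
  subst hn
  rcases hs.eq_or_lt with h1 | h1
  · obtain ⟨i, j, hij, h2⟩ := Finset.card_eq_two.1 h1.symm
    have hi : π i u ≠ 0 := mem_bsup.1 (by simp [h2])
    have hj : π j u ≠ 0 := mem_bsup.1 (by simp [h2])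
    have h3 : π i u + π j u = u := by
      rw [← Finset.sum_pair (f := fun m => π m u) hij, ← h2, Finset.sum_subset (Finset.subset_univ _)
        fun m _ hm => not_not.1 (mt mem_bsup.2 hm), h.sum]
    by_cases h4 : Q (π j u) = 0
    · refine h.of_two hp hF hij.symm fun a ha b hb => h.uu_two hp hF hij.symm (h.mem j u) hj
        (h.mem i u) (fun h5 => hu.1 ?_) (by rwa [add_comm, h3]) ha hb
      rw [← h3, Q_add_orth (h.orth i j hij _ (h.mem i u) _ (h.mem j u)), h4, h5, add_zero]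
    · exact h.of_two hp hF hij fun a ha b hb => h.uu_two hp hF hij (h.mem i u) hi (h.mem j u) h4
        (by rwa [h3]) ha hb
  have key : ∀ v, UU D X v → (bsup π v).card = (bsup π u).card → (2 : F) = 0 ∨ (bsup π u).card ≤ 3 →
      ∀ i ∈ bsup π v, Q (π i v) ≠ Q v → Om Q ≤ X := fun v hv h2 h3 i hi h4 => by
    obtain ⟨w, h5, h6⟩ := h.drop hp hF hv (h2 ▸ h3) hi fun e => h4 (by
      rw [h.Q_split i v, e, add_zero])
    exact ih _ (by omega) h5 (by omega) rfl
  by_cases h2 : ∃ i ∈ bsup π u, Q (π i u) ≠ Q u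
  · by_cases h3 : (2 : F) = 0 ∨ (bsup π u).card ≤ 3
    · obtain ⟨i, hi, h2⟩ := h2
      exact key u hu rfl h3 i hi h2
    · push Not at h3
      obtain ⟨v, h4, h5, h6⟩ := h.dt hp h3.1 hu h3.2
      exact ih _ h6 h4 h5 rfl
  push Not at h2
  by_cases h3 : (2 : F) = 0
  · obtain ⟨i, j, hi, hj, hij⟩ := Finset.one_lt_card_iff.1 hs
    obtain ⟨x, hx, h4, h5, h6, -⟩ := h.exists_rot hp (h.mem i u) (h2 i hi ▸ hu.1) (α := 1)
      (Or.inr (Or.inl ⟨hF, rfl⟩))
    have h7 : polar Q (π i u) x ≠ 0 := fun e => h5 (by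
      rw [e, show (4 : F) = 2 * 2 by norm_num, h3]; simp)
    have h8 : UU D X ((refl Q u).1 x) := h.uu_of_ext hx (by rwa [O.map_Q]) (by
      have := h.refl_mem_ext' h3 hx h4 hu
      rw [← refl_conj]
      exact Subgroup.mul_mem _ (Subgroup.mul_mem _ this (h.refl_mem_ext' h3 hx h4
        (h.uu_of_mem hx h4))) (Subgroup.inv_mem _ this))
    have h9 : ∀ m, π m ((refl Q u).1 x) =
        (if m = i then x else 0) - ((Q u)⁻¹ * polar Q (π i u) x) • π m u := fun m => by
      rw [refl_apply, map_sub, map_smul, h.proj_ite m hx, ← h.B_proj hx, polar_comm]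
    have h10 := mul_ne_zero (inv_ne_zero hu.1) h7
    have h11 : bsup π ((refl Q u).1 x) = bsup π u := by
      ext m
      rw [mem_bsup, h9]
      split_ifs with h11
      · subst h11
        refine iff_of_true (fun e => h5 ?_) hi
        rw [sub_eq_zero.1 e, B_smul_right, B_self, Q_smul]
        ring
      · simp [mem_bsup, hu.1, h7]
    refine key _ h8 (by rw [h11]) (Or.inl h3) j (h11 ▸ hj) fun e => h6 ?_
    rw [h9, if_neg hij.symm, zero_sub, QuadraticMap.map_neg, Q_smul, h2 j hj, O.map_Q] at e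
    have := hu.1
    rw [h2 i hi, ← e]
    field_simp
  by_cases h4 : 4 ≤ (bsup π u).card
  · obtain ⟨v, h4, h5, h6⟩ := h.dt hp h3 hu h4
    exact ih _ h6 h4 h5 rfl
  have h5 := h.Q_sum u
  rw [← Finset.sum_subset (Finset.subset_univ (bsup π u)) fun i _ hi => by
    rw [not_not.1 (mt mem_bsup.2 hi), map_zero], Finset.sum_congr rfl h2, Finset.sum_const,
    show (bsup π u).card = 3 by omega, nsmul_eq_mul] at h5
  exact absurd (by push_cast at h5; linear_combination -h5) (mul_ne_zero h3 hu.1)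

end Ctx

end H97o
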