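import Mathlib
import Cfsg.Agent.Base
import Cfsg.Agent.Lib.ClassMax.OPlane
import Cfsg.Agent.Lib.ClassMax.OBig

/-!
The stabiliser in `Ω` of an orthogonal decomposition into planes is maximal.
-/

set_option autoImplicit false
set_option linter.unusedSectionVars false
set_option linter.unusedVariables false

namespace H97o

open Module Cfsg H12 QuadraticMap

variable {F V : Type*} [Field F] [Fintype F] [AddCommGroup V] [Module F V] {Q : QuadraticForm F V}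
  [FiniteDimensional F V] {ι : Type*} [Fintype ι] [DecidableEq ι]
  {D : ι → Submodule F V} {π : ι → V →ₗ[F] V} {k : ℕ} {X : Subgroup (O Q)}

theorem conj_fix {g z : O Q} {y : V} (h : z.1 (g.1 y) = g.1 y) : (g⁻¹ * z * g).1 y = y := by
  rw [O.mul_apply, O.mul_apply, h, O.inv_apply_apply]

/-- Products of two reflections of norm `κ` in different blocks. -/
def T2 (Q : QuadraticForm F V) (D : ι → Submodule F V) (κ : F) (J : Finset ι) (t : O Q) : Prop :=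
  ∃ i j a b, i ≠ j ∧ J = {i, j} ∧ a ∈ D i ∧ b ∈ D j ∧ Q a = κ ∧ Q b = κ ∧ t = refl Q a * refl Q b

namespace Blk

/-- An element of rank at most two that moves a block is an involution. -/
theorem sq_eq_one (h : Blk Q D π 2) {g : O Q} (hg : g ∈ Hh Q D) {P : Submodule F V}
    (hP : finrank F P ≤ 2) (h1 : g ∈ movIn Q P) {i : ι} (hi : ¬ ∀ x ∈ D i, g.1 x ∈ D i) :
    g * g = 1 := by
  obtain ⟨σ, hσ⟩ := Hh_elim hg
  have h2 : σ i ≠ i := fun e => hi fun x hx => e ▸ (hσ i x).1 hx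
  let L : D i →ₗ[F] V := (LinearMap.id - (g.1 : V →ₗ[F] V)) ∘ₗ (D i).subtype
  have h3 : ∀ x : D i, π i (L x) = x := fun x => by
    simp [L, h.proj_self x.2, h.proj_other h2.symm ((hσ i _).1 x.2)]
  have h4 : LinearMap.range L = P := Submodule.eq_of_le_of_finrank_le
    (by rintro _ ⟨x, rfl⟩; exact h1 x) (by
      rw [LinearMap.finrank_range_of_inj fun x y e => Subtype.ext (by rw [← h3, e, h3]), h.dim]
      exact hP)
  have h5 : ∀ m, m ≠ i → ∀ z ∈ D m, z ∈ P → z = 0 := fun m hm z hz h5 => by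
    obtain ⟨x, rfl⟩ := h4.ge h5
    rw [show x = 0 from Subtype.ext (by rw [← h3, h.proj_other hm.symm hz]; rfl), map_zero]
  have h6 : ∀ m, m ≠ i → m ≠ σ i → ∀ z ∈ P, π m z = 0 := fun m m1 m2 z hz => by
    obtain ⟨x, rfl⟩ := h4.ge hz
    simp [L, h.proj_other m1 x.2, h.proj_other m2 ((hσ i _).1 x.2)]
  have h7 : ∀ m, m ≠ i → m ≠ σ i → ∀ z ∈ D m, g.1 z = z := fun m m1 m2 z hz =>
    H97o.movIn_fix h.nd h1 fun w hw => h.orth_of_proj hz (h6 m m1 m2 w hw)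
  have h8 : σ (σ i) = i := by_contra fun h8 => by
    obtain ⟨x, hx, hq⟩ := h.exists_nonsing (σ (σ i))
    have := (hσ _ x).1 hx
    rw [h7 _ h8 (σ.injective.ne h2) x hx] at this
    exact σ.injective.ne (σ.injective.ne h2) (h.eq_of_mem this hx (ne_zero_of_Q_ne hq))
  have h9 : ∀ z ∈ D (σ i), g.1 (g.1 z) = z := fun z hz => by
    have := (hσ _ _).1 ((hσ _ z).1 hz)
    rw [h8] at this
    exact (sub_eq_zero.1 (h5 _ h2 _ ((D _).sub_mem hz this) ((movIn Q P).mul_mem h1 h1 z))).symm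
  refine h.ext fun m x hx => ?_
  rw [O.mul_apply, O.one_apply]
  by_cases m1 : m = i
  · exact g.1.injective (h9 _ ((hσ i x).1 (m1 ▸ hx)))
  by_cases m2 : m = σ i
  · exact h9 x (m2 ▸ hx)
  rw [h7 m m1 m2 x hx, h7 m m1 m2 x hx]

theorem exists_fix (h : Blk Q D π k) (hn : 5 ≤ Fintype.card ι) {g : O Q} (hg : g ∈ Hh Q D)
    {P : Submodule F V} (hP : finrank F P ≤ 2) (h1 : g ∈ movIn Q P) : ∃ p, ∀ x ∈ D p, g.1 x = x := by
  by_contra h2
  push Not at h2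
  choose x hx h2 using h2
  obtain ⟨σ, hσ⟩ := Hh_elim hg
  have h3 : ∀ p, ∃ w ∈ D p, polar Q w (x p - g.1 (x p)) ≠ 0 := fun p => by
    obtain ⟨w, hw, h3⟩ := (h.ndOn p).exists_B_ne (h.mem p (x p - g.1 (x p))) (by
      rw [map_sub, h.proj_self (hx p), h.proj_ite p ((hσ p _).1 (hx p))]
      split_ifs
      · exact sub_ne_zero.2 (h2 p).symm
      · rw [sub_zero]; intro e; exact h2 p (by rw [e, map_zero]))
    exact ⟨w, hw, by rwa [polar_comm, h.B_proj hw] at h3⟩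
  choose w hw h3 using h3
  have h4 : ∀ p q, q ≠ p → q ≠ σ p → polar Q (w q) (x p - g.1 (x p)) = 0 := fun p q e1 e2 => by
    rw [polar_sub_right, h.orth q p e1 _ (hw q) _ (hx p), h.orth q _ e2 _ (hw q) _ ((hσ p _).1 (hx p)),
      sub_zero]
  obtain ⟨p, -⟩ := exists_notMem_list ([] : List ι) (by rw [List.length_nil]; omega)
  obtain ⟨q, h6⟩ := exists_notMem_list [p, σ p] (by simp; omega)
  obtain ⟨r, h7⟩ := exists_notMem_list [p, σ p, q, σ q] (by simp; omega)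
  simp only [List.mem_cons, List.not_mem_nil, or_false, not_or] at h6 h7
  have := three_le_finrank (h1 (x p)) (h1 (x q)) (h1 (x r)) (ne_zero_of_B_ne_right (h3 p))
    (h4 p q h6.1 h6.2) (h3 q) (h4 p r h7.1 h7.2.1) (h4 q r h7.2.2.1 h7.2.2.2) (h3 r)
  omega

variable {κ : F} {J : Finset ι} {t : O Q}

theorem t2_stab (h : Blk Q D π k) (ht : T2 Q D κ J t) (m : ι) (x : V) (hx : x ∈ D m) :
    t.1 x ∈ D m := by
  obtain ⟨i, j, a, b, -, -, ha, hb, -, -, rfl⟩ := ht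
  have key : ∀ {i a}, a ∈ D i → ∀ x ∈ D m, (refl Q a).1 x ∈ D m := fun {i a} ha x hx => by
    by_cases h1 : m = i
    · exact movIn_apply (refl_mem_movIn (h1 ▸ ha)) hx
    · rwa [h.refl_other h1 hx ha]
  exact key ha _ (key hb x hx)

theorem t2_fix (h : Blk Q D π k) (ht : T2 Q D κ J t) {m : ι} (hm : m ∉ J) {x : V} (hx : x ∈ D m) :
    t.1 x = x := by
  obtain ⟨i, j, a, b, -, rfl, ha, hb, -, -, rfl⟩ := ht
  simp only [Finset.mem_insert, Finset.mem_singleton, not_or] at hm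
  rw [O.mul_apply, h.refl_other hm.2 hx hb, h.refl_other hm.1 hx ha]

theorem t2_ne (h : Blk Q D π k) (hκ : κ ≠ 0) (ht : T2 Q D κ J t) {m : ι} (hm : m ∈ J) :
    ∃ x ∈ D m, t.1 x ≠ x := by
  obtain ⟨i, j, a, b, hij, rfl, ha, hb, qa, qb, rfl⟩ := ht
  have key : ∀ {i a}, a ∈ D i → Q a = κ → ∃ x ∈ D i, (refl Q a).1 x ≠ x := fun {i a} ha qa => by
    have h0 := ne_zero_of_Q_ne (qa ▸ hκ : Q a ≠ 0)
    obtain ⟨x, hx, h1⟩ := (h.ndOn i).exists_B_ne ha h0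
    refine ⟨x, hx, fun e => ?_⟩
    rw [refl_apply, sub_eq_self, qa] at e
    exact smul_ne_zero (mul_ne_zero (inv_ne_zero hκ) (B_symm_ne h1)) h0 e
  rcases Finset.mem_insert.1 hm with rfl | hm
  · obtain ⟨x, hx, h1⟩ := key ha qa
    exact ⟨x, hx, by rwa [O.mul_apply, h.refl_other hij hx hb]⟩
  · obtain rfl := Finset.mem_singleton.1 hm
    obtain ⟨x, hx, h1⟩ := key hb qb
    exact ⟨x, hx, by rwa [O.mul_apply, h.refl_other hij.symm (movIn_apply (refl_mem_movIn hb) hx) ha]⟩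

theorem t2_mem (h : Blk Q D π k) (ht : T2 Q D κ J t) : t ∈ Hh Q D ⊓ Om Q ∧ t * t = 1 := by
  obtain ⟨i, j, a, b, hij, rfl, ha, hb, qa, qb, rfl⟩ := ht
  refine ⟨⟨Subgroup.mul_mem _ (h.refl_mem ha) (h.refl_mem hb), rr_mem_Om h.nd (qa.trans qb.symm)⟩, ?_⟩
  rw [(commute_refl_refl (h.orth i j hij a ha b hb)).symm.mul_mul_mul_comm, refl_mul_self, refl_mul_self,
    one_mul]

theorem t2_orth (h : Blk Q D π 2) (ht : T2 Q D κ J t) {κ' : F}
    (h1 : ∀ m, ∀ a ∈ D m, Q a = κ → ∃ y ∈ D m, Q y = κ' ∧ polar Q y a = 0) (m : ι) :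
    ∃ y ∈ D m, Q y = κ' ∧ t.1 y = y := by
  by_cases hm : m ∈ J
  · obtain ⟨i, j, a, b, hij, rfl, ha, hb, qa, qb, rfl⟩ := ht
    rcases Finset.mem_insert.1 hm with rfl | hm
    · obtain ⟨y, hy, h2, h3⟩ := h1 m a ha qa
      exact ⟨y, hy, h2, by rw [O.mul_apply, h.refl_other hij hy hb, refl_apply_of_orth h3]⟩
    · obtain rfl := Finset.mem_singleton.1 hm
      obtain ⟨y, hy, h2, h3⟩ := h1 m b hb qb
      exact ⟨y, hy, h2, by rw [O.mul_apply, refl_apply_of_orth h3, h.refl_other hij.symm hy ha]⟩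
  · obtain ⟨y, hy, h2⟩ := h.universal le_rfl m κ'
    exact ⟨y, hy, h2, h.t2_fix ht hm hy⟩

theorem t2_card (ht : T2 Q D κ J t) : J.card = 2 := by
  obtain ⟨i, j, a, b, hij, rfl, -⟩ := ht
  exact Finset.card_pair hij

end Blk

namespace Ctx

theorem mem_of_blk (h : Ctx Q D π 2 X) (hp : Pl Q D) (hX : ¬ Om Q ≤ X) {g : O Q} (hg : g ∈ X)
    {i l : ι} {y : V} (hy : y ∈ D i) (hq : Q y ≠ 0) (hgy : g.1 y ∈ D l) : g ∈ Hh Q D := by
  have h1 : ∀ m, ∀ b ∈ D m, Q b = Q y → ∃ j, g.1 b ∈ D j := fun m b hb h1 => by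
    have h2 := h.uu_conj hg hy hgy (h.uu_of_mem hb (h1 ▸ hq)) (t := 1) (by rw [h1]; ring)
    obtain ⟨j, hj⟩ := h.exists_Q_proj_ne h2.1
    refine ⟨j, by_contra fun h3 => hX (h.of_uu_two hp h2 ?_)⟩
    obtain ⟨j', h4, h5⟩ := h.exists_proj_ne h3
    exact Finset.one_lt_card_iff.2 ⟨j', j, mem_bsup.2 h5, mem_bsup.2 (ne_zero_of_Q_ne hj), h4⟩
  refine h.mem_Hh fun m => ?_
  obtain ⟨a, ha, b, hb, qa, qb, h2, h3⟩ := h.exists_pair hp m hq
  obtain ⟨j, hj⟩ := h1 m a ha qa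
  obtain ⟨j', hj'⟩ := h1 m b hb qb
  obtain rfl := h.eq_of_B_ne hj hj' (by rwa [O.map_B])
  refine ⟨j, fun x hx => ?_⟩
  obtain ⟨s, t, rfl⟩ := mem_plane (h.dim m) ha hb h3 hx
  rw [map_add, map_smul, map_smul]
  exact (D j).add_mem ((D j).smul_mem _ hj) ((D j).smul_mem _ hj')

theorem mem_of_orth (h : Ctx Q D π 2 X) (hp : Pl Q D) (hX : ¬ Om Q ≤ X) {g : O Q} (hg : g ∈ X)
    {i p : ι} {y : V} (hy : y ∈ D i) (hq : Q y ≠ 0) (hgy : π p (g.1 y) = 0) : g ∈ Hh Q D := by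
  obtain ⟨a, ha, b, hb, qa, qb, h2, h3⟩ := h.exists_pair hp p one_ne_zero
  have h4 := h.rr_mem (h.uu_of_mem ha (qa ▸ one_ne_zero)) hb (qa.trans qb.symm)
  have h5 := h.mem_of_blk hp hX (X.mul_mem (X.mul_mem (X.inv_mem hg) h4) hg) hy hq (l := i) (by
    rwa [conj_fix (by rw [O.mul_apply, refl_apply_of_orth (B_symm (h.orth_of_proj hb hgy)),
      refl_apply_of_orth (B_symm (h.orth_of_proj ha hgy))])])
  have h6 := rr_conj_mem_movIn g⁻¹ a b
  rw [inv_inv] at h6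
  have h7 : g⁻¹ * (refl Q a * refl Q b) * g * (g⁻¹ * (refl Q a * refl Q b) * g) ≠ 1 := fun e => by
    have e1 : refl Q a * refl Q b * (refl Q a * refl Q b) = 1 := by
      calc _ = g * (g⁻¹ * (refl Q a * refl Q b) * g * (g⁻¹ * (refl Q a * refl Q b) * g)) * g⁻¹ := by
            group
        _ = 1 := by rw [e]; group
    have e2 : Commute (refl Q a) (refl Q b) := by
      have := inv_eq_of_sq e1
      rw [mul_inv_rev, refl_inv, refl_inv] at this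
      exact this.symm
    rcases eq_or_neg_of_commute h.nd (qb ▸ one_ne_zero) e2 with e3 | e3
    · rw [refl_apply, sub_eq_self, qa, inv_one, one_mul] at e3
      exact smul_ne_zero (B_symm_ne h2) (ne_zero_of_B_ne_left h2) e3
    · have e4 := O.map_B (refl Q a) b b
      nth_rewrite 1 [refl_apply] at e4
      rw [e3, polar_neg_right, polar_sub_left, B_smul_left, B_self, qa, qb, polar_comm Q b a] at e4
      exact h3 (by rw [qa, qb]; linear_combination e4)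
  obtain ⟨m, x, hx, h8⟩ := h.exists_mov (g := g⁻¹ * (refl Q a * refl Q b) * g)
    (fun m => by_contra fun h8 => h7 (h.sq_eq_one h5 (finrank_span_pair_le _ _) h6 h8))
    fun e => h7 (by rw [e, one_mul])
  refine h.mem_of_blk hp hX hg ((D m).sub_mem hx (by_contra fun h9 =>
    h7 (h.sq_eq_one h5 (finrank_span_pair_le _ _) h6 fun h10 => h9 (h10 x hx)))) h8 (l := p) ?_
  rw [map_sub, O.mul_apply, O.mul_apply, O.apply_inv_apply]
  exact Subgroup.mul_mem _ (refl_mem_movIn ha) (refl_mem_movIn hb) _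

theorem mem_of_rr (h : Ctx Q D π 2 X) (hp : Pl Q D) (hX : ¬ Om Q ≤ X) {g : O Q} (hg : g ∈ X)
    {i j : ι} (hij : i ≠ j) {a b : V} (ha : a ∈ D i) (hb : b ∈ D j) (hq : Q a ≠ 0)
    (h1 : g * (refl Q a * refl Q b) * g⁻¹ ∈ Hh Q D) : g ∈ Hh Q D := by
  obtain ⟨p, h2⟩ := h.exists_fix hp.five h1 (finrank_span_pair_le _ _) (rr_conj_mem_movIn g a b)
  obtain ⟨y, hy⟩ := exists_mov_rr h.nd hq (b := b) fun h3 => hij (h.eq_of_mem ha
    ((Submodule.span_singleton_le_iff_mem _ _).2 hb h3) (ne_zero_of_Q_ne hq))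
  refine h.mem_of_orth hp hX hg ha hq (p := p) (h.proj_eq_zero fun w hw => ?_)
  have := O.B_fix_sub _ (h2 w hw) (g.1 y)
  rwa [O.mul_apply, O.mul_apply, O.inv_apply_apply, ← map_sub, hy] at this

theorem mem_of_comm (h : Ctx Q D π 2 X) (hp : Pl Q D) (hX : ¬ Om Q ≤ X) {g : O Q} (hg : g ∈ X)
    {c : O Q} (hc : ∀ i, ∀ x ∈ D i, c.1 x ∈ D i) (h1 : c ≠ 1) (h2 : Commute g c) {i j : ι}
    (hij : i ≠ j) {a b : V} (ha : a ∈ D i) (hb : b ∈ D j) (hq : Q a ≠ 0) (hab : Q a = Q b)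
    (h3 : c.1 a = a) (h4 : c.1 b = b) : g ∈ Hh Q D := by
  obtain ⟨m, x, hx, h5⟩ := h.exists_mov hc h1
  have h6 : g.1 (x - c.1 x) = g.1 x - c.1 (g.1 x) := by
    rw [map_sub, ← O.mul_apply, h2.eq, O.mul_apply]
  have h7 := h.mem_of_blk hp hX (X.mul_mem (X.mul_mem (X.inv_mem hg)
    (h.rr_mem (h.uu_of_mem ha hq) hb hab)) hg) ((D m).sub_mem hx (hc m x hx)) h5 (l := m) (by
      rw [conj_fix (by rw [O.mul_apply, h6, refl_apply_of_orth (B_symm (O.B_fix_sub c h4 _)),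
        refl_apply_of_orth (B_symm (O.B_fix_sub c h3 _))])]
      exact (D m).sub_mem hx (hc m x hx))
  simpa using (Hh Q D).inv_mem (h.mem_of_rr hp hX (X.inv_mem hg) hij ha hb hq (by rwa [inv_inv]))

theorem le_planes (h : Ctx Q D π 2 X) (hp : Pl Q D) (hX : ¬ Om Q ≤ X) : X ≤ Hh Q D ⊓ Om Q := by
  have := finiteO Q
  have h5 := hp.five
  obtain ⟨i₀⟩ := Fintype.card_pos_iff.1 (by omega : 0 < Fintype.card ι)
  obtain ⟨κ, hκ, h1⟩ := h.exists_kappa i₀ (one_ne_zero (α := F))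
  have h2 : ∀ s, s ∈ {s | ∃ J J' t t', Disjoint J J' ∧ T2 Q D 1 J t ∧ T2 Q D 1 J' t' ∧ s = t * t'} ∨
      s ∈ {t | ∃ J, T2 Q D 1 J t} →
      (∀ i, ∀ x ∈ D i, s.1 x ∈ D i) ∧ ∀ m, ∃ y ∈ D m, Q y = κ ∧ s.1 y = y := by
    rintro s (⟨J, J', t, t', h2, h3, h4, rfl⟩ | ⟨J, h2⟩)
    · refine ⟨fun i x hx => h.t2_stab h3 i _ (h.t2_stab h4 i x hx), fun m => ?_⟩
      by_cases hm : m ∈ J
      · obtain ⟨y, hy, h6, h7⟩ := h.t2_orth h3 h1 m
        exact ⟨y, hy, h6, by rw [O.mul_apply, h.t2_fix h4 (Finset.disjoint_left.1 h2 hm) hy, h7]⟩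
      · obtain ⟨y, hy, h6, h7⟩ := h.t2_orth h4 h1 m
        exact ⟨y, hy, h6, by rw [O.mul_apply, h7, h.t2_fix h3 hm hy]⟩
    · exact ⟨h.t2_stab h2, h.t2_orth h2 h1⟩
  have h3 : ∀ {J J' t t'}, Disjoint J J' → T2 Q D 1 J t → T2 Q D 1 J' t' → ∀ m ∈ J ∪ J',
      ∃ x ∈ D m, (t * t').1 x ≠ x := fun {J J' t t'} h2 h3 h4 m hm => by
    rcases Finset.mem_union.1 hm with hm | hm
    · obtain ⟨x, hx, h6⟩ := h.t2_ne one_ne_zero h3 hm
      exact ⟨x, hx, by rwa [O.mul_apply, h.t2_fix h4 (Finset.disjoint_left.1 h2 hm) hx]⟩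
    · obtain ⟨x, hx, h6⟩ := h.t2_ne one_ne_zero h4 hm
      exact ⟨x, hx, by
        rwa [O.mul_apply, h.t2_fix h3 (Finset.disjoint_right.1 h2 hm) (h.t2_stab h4 m x hx)]⟩
  refine le_of_dihedral h.le {t | ∃ J, T2 Q D 1 J t}
    {s | ∃ J J' t t', Disjoint J J' ∧ T2 Q D 1 J t ∧ T2 Q D 1 J' t' ∧ s = t * t'}
    (fun t ⟨J, ht⟩ => h.t2_mem ht) ?_ ?_ ?_ ?_ ?_ ?_
  · rintro _ ⟨J, J', t, t', h4, h6, h7, rfl⟩
    refine ⟨Subgroup.mul_mem _ (h.t2_mem h6).1 (h.t2_mem h7).1, ?_, fun ⟨J'', h8⟩ => ?_⟩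
    · have : Commute t t' := h.ext fun m x hx => by
        rw [O.mul_apply, O.mul_apply]
        by_cases hm : m ∈ J
        · have := Finset.disjoint_left.1 h4 hm
          rw [h.t2_fix h7 this hx, h.t2_fix h7 this (h.t2_stab h6 m x hx)]
        · rw [h.t2_fix h6 hm hx, h.t2_fix h6 hm (h.t2_stab h7 m x hx)]
      rw [this.symm.mul_mul_mul_comm, (h.t2_mem h6).2, (h.t2_mem h7).2, one_mul]
    · obtain ⟨m, h9, h10⟩ := Finset.exists_mem_notMem_of_card_lt_card (s := J'') (t := J ∪ J') (by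
        rw [Finset.card_union_of_disjoint h4, Blk.t2_card h6, Blk.t2_card h7, Blk.t2_card h8]; omega)
      obtain ⟨x, hx, h11⟩ := h3 h4 h6 h7 m h9
      exact h11 (h.t2_fix h8 h10 hx)
  · rintro g hg _ ⟨J, i, j, a, b, hij, -, ha, hb, qa, qb, rfl⟩ h4
    exact ⟨h.mem_of_rr hp hX hg hij ha hb (qa ▸ one_ne_zero) h4.1, h.le' hg⟩
  · rintro g hg _ ⟨J, i, j, a, b, hij, -, ha, hb, qa, qb, rfl⟩
    obtain ⟨σ, hσ⟩ := Hh_elim hg.1
    exact ⟨_, σ i, σ j, g.1 a, g.1 b, σ.injective.ne hij, rfl, (hσ i a).1 ha, (hσ j b).1 hb,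
      by rw [O.map_Q, qa], by rw [O.map_Q, qb], rr_conj g a b⟩
  · intro s hs g hg h4
    obtain ⟨h6, h7⟩ := h2 s (Or.inl hs)
    obtain ⟨i, j, hij⟩ := Fintype.exists_pair_of_one_lt_card (by omega : 1 < Fintype.card ι)
    obtain ⟨a, ha, qa, h8⟩ := h7 i
    obtain ⟨b, hb, qb, h9⟩ := h7 j
    refine ⟨h.mem_of_comm hp hX hg h6 ?_ h4 hij ha hb (qa ▸ hκ) (qa.trans qb.symm) h8 h9, h.le' hg⟩
    obtain ⟨J, J', t, t', h10, h11, h12, rfl⟩ := hs
    obtain ⟨m, hm⟩ := Finset.card_pos.1 (by rw [Blk.t2_card h11]; omega : 0 < J.card)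
    obtain ⟨x, -, h13⟩ := h3 h10 h11 h12 m (Finset.mem_union_left _ hm)
    exact fun e => h13 (by rw [e, O.one_apply])
  · rintro t ⟨J, ht⟩ s hs h4 g hg h6
    obtain ⟨h7, h8⟩ := h2 s hs
    obtain ⟨i, j, hi, hj, hij⟩ := Finset.one_lt_card_iff.1
      (by rw [Finset.card_compl, Blk.t2_card ht]; omega : 1 < Jᶜ.card)
    obtain ⟨a, ha, qa, h9⟩ := h8 i
    obtain ⟨b, hb, qb, h10⟩ := h8 j
    exact ⟨h.mem_of_comm hp hX hg (c := t * s) (fun i x hx => h.t2_stab ht i _ (h7 i x hx)) h4 h6 hij ha hb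
      (qa ▸ hκ) (qa.trans qb.symm)
      (by rw [O.mul_apply, h9, h.t2_fix ht (Finset.mem_compl.1 hi) ha])
      (by rw [O.mul_apply, h10, h.t2_fix ht (Finset.mem_compl.1 hj) hb]), h.le' hg⟩
  · choose a ha qa using fun i => h.universal le_rfl i (1 : F)
    obtain ⟨i, h6⟩ := exists_notMem_list [i₀] (by simp; omega)
    obtain ⟨j, h7⟩ := exists_notMem_list [i₀, i] (by simp; omega)
    obtain ⟨k, h8⟩ := exists_notMem_list [i₀, i, j] (by simp; omega)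
    obtain ⟨l, h9⟩ := exists_notMem_list [i₀, i, j, k] (by simp; omega)
    simp only [List.mem_cons, List.not_mem_nil, or_false, not_or] at h6 h7 h8 h9
    have hT : ∀ i j, i ≠ j → T2 Q D 1 {i, j} (refl Q (a i) * refl Q (a j)) := fun i j hij =>
      ⟨i, j, _, _, hij, rfl, ha i, ha j, qa i, qa j, rfl⟩
    refine ⟨_, ⟨_, _, _, _, ?_, hT l k h9.2.2.2, hT j i h7.2, rfl⟩, _,
      ⟨_, _, _, _, ?_, hT i j (Ne.symm h7.2), hT k i₀ h8.1, rfl⟩, {l, i₀}, ?_⟩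
    · simp [Ne.symm h8.2.1, Ne.symm h8.2.2, Ne.symm h9.2.1, Ne.symm h9.2.2.1]
    · simp [h8, Ne.symm h6, Ne.symm h7.1]
    · convert hT l i₀ h9.1 using 1
      simp only [mul_assoc, ← mul_assoc (refl Q (a i)) (refl Q (a i)), ← mul_assoc (refl Q (a j)) (refl Q (a j)),
        ← mul_assoc (refl Q (a k)) (refl Q (a k)), refl_mul_self, one_mul]

end Ctx

theorem isMaximalIn_planes (h : Blk Q D π 2) (hp : Pl Q D) :
    Geo.IsMaximalIn (Om Q) (Hh Q D ⊓ Om Q) := by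
  refine H97.isMaximalIn_of inf_le_right (fun h1 => ?_) fun X hX hX' ⟨g, hg, hg'⟩ =>
    by_contra fun h1 => hg' (Ctx.le_planes ⟨h, hX, hX'⟩ hp h1 hg)
  have h5 := hp.five
  obtain ⟨i, j, hij⟩ := Fintype.exists_pair_of_one_lt_card (by omega : 1 < Fintype.card ι)
  obtain ⟨l, hl⟩ := exists_notMem_list [i, j] (by simp; omega)
  simp only [List.mem_cons, List.not_mem_nil, or_false, not_or] at hl
  obtain ⟨a, ha, qa⟩ := h.universal le_rfl i (1 : F)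
  obtain ⟨b, hb, qb⟩ := h.universal le_rfl j (-1 : F)
  obtain ⟨w, hw, qw⟩ := h.exists_nonsing l
  obtain ⟨x, hx, h2⟩ := (h.ndOn l).exists_B_ne hw (ne_zero_of_Q_ne qw)
  have hd : Q (a + b) = 0 := by rw [Q_add_orth (h.orth i j hij a ha b hb), qa, qb, add_neg_cancel]
  have h3 : ∀ w ∈ D l, polar Q (a + b) w = 0 := fun w hw => by
    rw [polar_add_left, h.orth i l (Ne.symm hl.1) a ha w hw, h.orth j l (Ne.symm hl.2) b hb w hw,
      add_zero]
  obtain ⟨σ, hσ⟩ := Hh_elim (h1 (eich_mem_Om h.nd h.good (a + b) w)).1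
  have h4 := (hσ l x).1 hx
  rw [eich_apply_of_orth_left hd (h3 w hw) (B_symm (h3 x hx))] at h4
  have e1 := h.proj_ite i h4
  have e2 := h.proj_ite j h4
  simp only [map_add, map_smul, h.proj_self ha, h.proj_self hb, h.proj_other hij hb, add_zero,
    h.proj_other hij.symm ha, h.proj_other (Ne.symm hl.1) hx, h.proj_other (Ne.symm hl.2) hx,
    zero_add] at e1 e2
  by_cases h6 : i = σ l
  · rw [if_neg fun e => hij (h6.trans e.symm)] at e2
    exact smul_ne_zero (B_symm_ne h2) (ne_zero_of_Q_ne (by rw [qb]; simp)) e2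
  · rw [if_neg h6] at e1
    exact smul_ne_zero (B_symm_ne h2) (ne_zero_of_Q_ne (by rw [qa]; simp)) e1

section Geo

variable {ι' : Type} [Fintype ι'] [DecidableEq ι'] {Q : QuadraticForm F (ι' → F)} {t k : ℕ}
  {D : Fin t → Submodule F (ι' → F)}

theorem plus_of_plus (hD : Geo.IsOrthogonalMDecomposition Q k D) {i : Fin t}
    (h : Geo.IsPlusTypeOn Q (D i)) (j : Fin t) : Geo.IsPlusTypeOn Q (D j) := by
  obtain ⟨e, he⟩ := hD.isometric i j
  obtain ⟨U, h1, h2, h3⟩ := h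
  refine ⟨((U.comap (D i).subtype).map (e : D i →ₗ[F] D j)).map (D j).subtype,
    Submodule.map_subtype_le _ _, ?_, ?_⟩
  · rintro _ ⟨_, ⟨x, hx, rfl⟩, rfl⟩
    exact (he x).trans (h2 _ hx)
  · rw [Submodule.finrank_map_subtype_eq, LinearEquiv.finrank_map_eq,
      (Submodule.comapSubtypeEquivOfLe h1).finrank_eq, h3, e.finrank_eq]

/-- Orthogonal decompositions into isometric blocks of dimension at least two. -/
theorem isMaximalIn_decomp (hQ : Nondeg Q) (hG : Good Q) (hD : Geo.IsOrthogonalMDecomposition Q k D)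
    (hk : 2 ≤ k) (h2 : k = 2 → 5 ≤ t ∧ Fintype.card F ≠ 3 ∧
      ((∀ i, Geo.IsPlusTypeOn Q (D i)) → 7 ≤ Fintype.card F))
    (h3 : k = 3 → Odd (Fintype.card F) ∧ Fintype.card F ≠ 3)
    (h4 : k = 4 → Fintype.card F = 2 → ¬ ∀ i, Geo.IsPlusTypeOn Q (D i)) :
    Geo.IsMaximalIn (Geo.omegaGL Q) (Geo.decompositionStabilizer D ⊓ Geo.omegaGL Q) := by
  rw [H97.decompositionStabilizer_eq]
  obtain ⟨π, hπ⟩ := exists_blk hQ hG hD
  have : Nontrivial (Fin t) := Fin.nontrivial_iff_two_le.2 hD.decomp.decomp.two_le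
  refine isMaximalIn_omega ?_
  rcases hk.eq_or_lt with rfl | hk
  · obtain ⟨h5, h6, h7⟩ := h2 rfl
    refine isMaximalIn_planes hπ ⟨by simpa using h5, or_iff_not_imp_left.2 fun h8 =>
      ⟨h6, fun i x hx hq => by_contra fun h0 => h8 (h7 (plus_of_plus hD (i := i)
        ⟨F ∙ x, (Submodule.span_singleton_le_iff_mem _ _).2 hx, fun w hw => ?_, ?_⟩))⟩⟩
    · obtain ⟨c, rfl⟩ := Submodule.mem_span_singleton.1 hw
      rw [Q_smul, hq, mul_zero]
    · rw [finrank_span_singleton h0, hπ.dim]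
  refine isMaximalIn_blocks hπ ⟨?_, fun h5 h6 i U h7 h8 h9 =>
    h4 h6 h5 (plus_of_plus hD (i := i) ⟨U, h7, h8, by rw [h9, hπ.dim, h6]⟩)⟩
  by_cases h5 : k = 3
  · have h6 := two_ne_zero_of_odd (h3 h5).1
    have := five_le_card h6 (h3 h5).2
    exact Or.inr ⟨by omega, h6, by omega⟩
  · exact Or.inl (by omega)

theorem seven_le_card (h2 : Fintype.card F ≠ 2) (h3 : Fintype.card F ≠ 3) (h4 : Fintype.card F ≠ 4)
    (h5 : Fintype.card F ≠ 5) : 7 ≤ Fintype.card F := by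
  have h1 : 1 < Fintype.card F := Fintype.one_lt_card
  have h6 : Fintype.card F ≠ 6 := fun h => absurd (h ▸ FiniteField.isPrimePow_card F) (by decide)
  omega

end Geo

end H97o
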